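import Mathlib
import Cfsg.Agent.H84.PslStmt

set_option autoImplicit false

namespace Cfsg.Agent.Lib.Helper52.PslP7a

open Cfsg.Agent.H84.PslDefs Matrix

universe u

/-- One step of the downward induction on rows. -/
theorem step {n : ℕ} {K : Type u} [Field K] (b : SpecialLinearGroup (Fin n) K)
    (hb : ∀ u ∈ Uni n K, ∃ w : SpecialLinearGroup (Fin n) K, ∃ c : K,
        (∀ i j : Fin n, j < i → w i j = 0) ∧ (∀ i, w i i = c) ∧ w * b = b * u)
    (i : Fin n) (ih : ∀ m : Fin n, i < m → ∀ k : Fin n, k < m → b m k = 0)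
    (k : Fin n) (hk : k < i) : b i k = 0 := by
  have hki : k ≠ i := ne_of_lt hk
  have hu : SpecialLinearGroup.transvection hki (1 : K) ∈ Uni n K := by
    rw [mem_Uni]
    constructor
    · intro a c hca
      show (Matrix.transvection k i (1 : K)) a c = 0
      have hac : a ≠ c := ne_of_gt hca
      simp only [Matrix.transvection, Matrix.add_apply, Matrix.one_apply_ne hac, zero_add]
      rw [Matrix.single_apply]
      rw [if_neg]
      rintro ⟨h1, h2⟩
      subst h1; subst h2
      exact absurd hk (not_lt.mpr (le_of_lt hca))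
    · intro a
      show (Matrix.transvection k i (1 : K)) a a = 1
      simp only [Matrix.transvection, Matrix.add_apply, Matrix.one_apply_eq]
      rw [Matrix.single_apply, if_neg, add_zero]
      rintro ⟨h1, h2⟩
      exact hki (h1.trans h2.symm)
  obtain ⟨w, c, hw1, hw2, hwb⟩ := hb _ hu
  have hm : (w : Matrix (Fin n) (Fin n) K) * (b : Matrix (Fin n) (Fin n) K)
      = (b : Matrix (Fin n) (Fin n) K) * Matrix.transvection k i (1 : K) := by
    have := congrArg Subtype.val hwb
    exact this
  have hsum : ∀ j : Fin n, j ≤ i →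
      ((w : Matrix (Fin n) (Fin n) K) * (b : Matrix (Fin n) (Fin n) K)) i j = c * b i j := by
    intro j hj
    rw [Matrix.mul_apply, Finset.sum_eq_single i]
    · rw [hw2]
    · intro m _ hmi
      rcases lt_or_gt_of_ne hmi with h | h
      · rw [hw1 i m h, zero_mul]
      · rw [ih m h j (lt_of_le_of_lt hj h), mul_zero]
    · intro h; exact absurd (Finset.mem_univ i) h
  have e2 : c * b i k = b i k := by
    rw [← hsum k (le_of_lt hk), hm]
    exact Matrix.mul_transvection_apply_of_ne k i i k hki 1 _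
  have e1 : c * b i i = b i i + b i k := by
    rw [← hsum i le_rfl, hm, Matrix.mul_transvection_apply_same, one_mul]
  by_contra hne
  have hc : c = 1 := by
    have : (c - 1) * b i k = 0 := by rw [sub_mul, e2, one_mul, sub_self]
    rcases mul_eq_zero.mp this with h | h
    · exact sub_eq_zero.mp h
    · exact absurd h hne
  rw [hc, one_mul] at e1
  exact hne (by simpa using e1.symm)

theorem upper {n : ℕ} {K : Type u} [Field K] (b : SpecialLinearGroup (Fin n) K)
    (hb : ∀ u ∈ Uni n K, ∃ w : SpecialLinearGroup (Fin n) K, ∃ c : K,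
        (∀ i j : Fin n, j < i → w i j = 0) ∧ (∀ i, w i i = c) ∧ w * b = b * u) :
    ∀ i k : Fin n, k < i → b i k = 0 := by
  have key : ∀ d : ℕ, ∀ i : Fin n, n - i.val = d → ∀ k : Fin n, k < i → b i k = 0 := by
    intro d
    induction d using Nat.strong_induction_on with
    | _ d ih =>
      intro i hi k hk
      refine step b hb i ?_ k hk
      intro m hm k' hk'
      have hm' : i.val < m.val := hm
      have hmn := m.isLt
      exact ih (n - m.val) (by omega) m rfl k' hk'
  intro i k hk
  exact key _ i rfl k hk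

theorem main : Cfsg.Agent.H84.PslStmt.NormalizerUbar.{u} := by
  intro n K _ _ p _ _ hn g hg
  obtain ⟨b, rfl⟩ := proj_surjective n K g
  have hb : ∀ u ∈ Uni n K, ∃ w : SpecialLinearGroup (Fin n) K, ∃ c : K,
      (∀ i j : Fin n, j < i → w i j = 0) ∧ (∀ i, w i i = c) ∧ w * b = b * u := by
    intro u hu
    have h1 : proj n K u ∈ Ubar n K := Subgroup.mem_map_of_mem _ hu
    have h2 := (Subgroup.mem_normalizer_iff.mp hg _).mp h1
    rw [← map_inv, ← map_mul, ← map_mul] at h2
    obtain ⟨u₁, hu₁, hu₁eq⟩ := h2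
    have h3 : u₁⁻¹ * (b * u * b⁻¹) ∈ Subgroup.center (SpecialLinearGroup (Fin n) K) := by
      rw [← ker_proj, MonoidHom.mem_ker, map_mul, map_inv, hu₁eq, inv_mul_cancel]
    obtain ⟨c, hc, hcz⟩ := Matrix.SpecialLinearGroup.mem_center_iff.mp h3
    have h4 : (b * u * b⁻¹ : SpecialLinearGroup (Fin n) K) = u₁ * (u₁⁻¹ * (b * u * b⁻¹)) := by
      group
    have h5 : ((b * u * b⁻¹ : SpecialLinearGroup (Fin n) K) : Matrix (Fin n) (Fin n) K)
        = (u₁ : Matrix (Fin n) (Fin n) K) * Matrix.scalar (Fin n) c := by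
      rw [hcz]
      conv_lhs => rw [h4]
      rfl
    have h6 : ∀ i j : Fin n, (b * u * b⁻¹ : SpecialLinearGroup (Fin n) K) i j = u₁ i j * c := by
      intro i j
      show ((b * u * b⁻¹ : SpecialLinearGroup (Fin n) K) : Matrix (Fin n) (Fin n) K) i j = _
      rw [h5, Matrix.scalar_apply, Matrix.mul_diagonal]
    have hu₁' := (mem_Uni n K u₁).mp hu₁
    refine ⟨b * u * b⁻¹, c, ?_, ?_, ?_⟩
    · intro i j hji
      rw [h6, hu₁'.1 i j hji, zero_mul]
    · intro i
      rw [h6, hu₁'.2 i, one_mul]
    · group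
  have hup := upper b hb
  have hdet : ∏ i, b i i = 1 := by
    have h1 := Matrix.det_of_isUpperTriangular (M := (b : Matrix (Fin n) (Fin n) K))
      (fun i j hji => hup i j hji)
    rw [← h1]
    exact b.2
  have hd0 : ∀ i, b i i ≠ 0 := by
    intro i h0
    have : ∏ i, b i i = 0 := Finset.prod_eq_zero (Finset.mem_univ i) h0
    rw [hdet] at this
    exact one_ne_zero this
  refine ⟨⟨Matrix.diagonal (fun i => b i i), by rw [Matrix.det_diagonal]; exact hdet⟩,
    ⟨Matrix.diagonal (fun i => (b i i)⁻¹), by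
      rw [Matrix.det_diagonal, Finset.prod_inv_distrib, hdet, inv_one]⟩ * b, ?_, ?_, ?_⟩
  · intro i j hij
    exact Matrix.diagonal_apply_ne _ hij
  · rw [mem_Uni]
    constructor
    · intro i j hji
      show (Matrix.diagonal (fun i => (b i i)⁻¹) * (b : Matrix (Fin n) (Fin n) K)) i j = 0
      rw [Matrix.diagonal_mul, hup i j hji, mul_zero]
    · intro i
      show (Matrix.diagonal (fun i => (b i i)⁻¹) * (b : Matrix (Fin n) (Fin n) K)) i i = 1
      rw [Matrix.diagonal_mul]
      exact inv_mul_cancel₀ (hd0 i)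
  · congr 1
    apply Subtype.ext
    show Matrix.diagonal (fun i => b i i) *
      (Matrix.diagonal (fun i => (b i i)⁻¹) * (b : Matrix (Fin n) (Fin n) K)) = b
    rw [← Matrix.mul_assoc, Matrix.diagonal_mul_diagonal]
    have : (fun i => b i i * (b i i)⁻¹) = fun _ => (1 : K) :=
      funext fun i => mul_inv_cancel₀ (hd0 i)
    rw [this, Matrix.diagonal_one, Matrix.one_mul]

end Cfsg.Agent.Lib.Helper52.PslP7a
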