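import Mathlib
import Cfsg.Agent.H84.PslStmt

set_option autoImplicit false
set_option linter.unusedSectionVars false

namespace Cfsg.Agent.Lib.Helper52.PslP7c

open Cfsg.Agent.H84.PslDefs Matrix

universe u

theorem mem_normalizer_of_conj {G : Type*} [Group G] [Finite G] (P : Subgroup G) (g : G)
    (h : ∀ x ∈ P, g * x * g⁻¹ ∈ P) : g ∈ Subgroup.normalizer (P : Set G) := by
  rw [Subgroup.mem_normalizer_iff]
  intro x
  refine ⟨h x, fun hx => ?_⟩
  let φ : P → P := fun y => ⟨g * y * g⁻¹, h y y.2⟩
  have hinj : Function.Injective φ := by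
    intro a b hab
    have h1 : g * (a : G) * g⁻¹ = g * (b : G) * g⁻¹ := congrArg Subtype.val hab
    apply Subtype.ext
    have h2 : g⁻¹ * (g * (a : G) * g⁻¹) * g = g⁻¹ * (g * (b : G) * g⁻¹) * g := by rw [h1]
    simpa [mul_assoc] using h2
  obtain ⟨y, hy⟩ := (Finite.injective_iff_surjective.mp hinj) ⟨g * x * g⁻¹, hx⟩
  have h1 : g * (y : G) * g⁻¹ = g * x * g⁻¹ := congrArg Subtype.val hy
  have h2 : (y : G) = x := by
    have h3 : g⁻¹ * (g * (y : G) * g⁻¹) * g = g⁻¹ * (g * x * g⁻¹) * g := by rw [h1]
    simpa [mul_assoc] using h3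
  rw [← h2]; exact y.2

section Mat
variable {n : ℕ} {K : Type u} [Field K]

/-- the identity matrix with the `2 × 2` block `(α β; γ δ)` in rows/columns `i0`, `i1` -/
def G (i0 i1 : Fin n) (α β γ δ : K) : Matrix (Fin n) (Fin n) K :=
  fun r c => if r = i0 then (if c = i0 then α else if c = i1 then β else 0)
    else if r = i1 then (if c = i0 then γ else if c = i1 then δ else 0)
    else if r = c then 1 else 0

theorem G_diag (i0 i1 : Fin n) (h : i0 ≠ i1) (a b : K) :
    G i0 i1 a 0 0 b = Matrix.diagonal (fun r => if r = i0 then a else if r = i1 then b else 1) := by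
  ext r c
  unfold G
  by_cases hrc : r = c
  · subst hrc
    rw [Matrix.diagonal_apply_eq]
    by_cases h0 : r = i0
    · simp [h0]
    · by_cases h1 : r = i1
      · simp [h1, Ne.symm h]
      · simp [h0, h1]
  · rw [Matrix.diagonal_apply_ne _ hrc]
    by_cases h0 : r = i0
    · subst h0
      have : c ≠ r := Ne.symm hrc
      simp [this]
    · by_cases h1 : r = i1
      · subst h1
        have : c ≠ r := Ne.symm hrc
        simp [this, h0]
      · simp [h0, h1, hrc]

theorem G_one (i0 i1 : Fin n) (h : i0 ≠ i1) : G i0 i1 (1 : K) 0 0 1 = 1 := by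
  rw [G_diag i0 i1 h, ← Matrix.diagonal_one]
  congr 1
  funext r
  split_ifs <;> rfl

theorem x_mul (i0 i1 : Fin n) (h : i0 ≠ i1) (a α β γ δ : K) :
    Matrix.transvection i0 i1 a * G i0 i1 α β γ δ = G i0 i1 (α + a * γ) (β + a * δ) γ δ := by
  ext r c
  by_cases hr : r = i0
  · subst hr
    rw [Matrix.transvection_mul_apply_same]
    unfold G
    simp only [if_true, if_neg (Ne.symm h)]
    split_ifs <;> ring
  · rw [Matrix.transvection_mul_apply_of_ne _ _ _ _ hr]
    unfold G
    simp only [if_neg hr]

theorem y_mul (i0 i1 : Fin n) (h : i0 ≠ i1) (a α β γ δ : K) :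
    Matrix.transvection i1 i0 a * G i0 i1 α β γ δ = G i0 i1 α β (γ + a * α) (δ + a * β) := by
  ext r c
  by_cases hr : r = i1
  · subst hr
    rw [Matrix.transvection_mul_apply_same]
    unfold G
    simp only [if_true, if_neg (Ne.symm h)]
    split_ifs <;> ring
  · rw [Matrix.transvection_mul_apply_of_ne _ _ _ _ hr]
    unfold G
    by_cases h0 : r = i0
    · simp only [if_pos h0]
    · simp only [if_neg h0, if_neg hr]

/-- the torus element `h_{i0,i1}(c)` as a product of six transvections -/
def H (i0 i1 : Fin n) (h : i0 ≠ i1) (c : K) : SpecialLinearGroup (Fin n) K :=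
  SpecialLinearGroup.transvection h c * SpecialLinearGroup.transvection (Ne.symm h) (-c⁻¹) *
    SpecialLinearGroup.transvection h c * SpecialLinearGroup.transvection h (-1) *
    SpecialLinearGroup.transvection (Ne.symm h) 1 * SpecialLinearGroup.transvection h (-1)

theorem H_coe (i0 i1 : Fin n) (h : i0 ≠ i1) (c : K) (hc : c ≠ 0) :
    (H i0 i1 h c : Matrix (Fin n) (Fin n) K)
      = Matrix.diagonal (fun r => if r = i0 then c else if r = i1 then c⁻¹ else 1) := by
  have e : (H i0 i1 h c : Matrix (Fin n) (Fin n) K)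
      = Matrix.transvection i0 i1 c * (Matrix.transvection i1 i0 (-c⁻¹) *
        (Matrix.transvection i0 i1 c * (Matrix.transvection i0 i1 (-1) *
        (Matrix.transvection i1 i0 1 * (Matrix.transvection i0 i1 (-1) * G i0 i1 (1 : K) 0 0 1))))) := by
    rw [G_one i0 i1 h, Matrix.mul_one]
    show Matrix.transvection i0 i1 c * Matrix.transvection i1 i0 (-c⁻¹) *
      Matrix.transvection i0 i1 c * Matrix.transvection i0 i1 (-1) *
      Matrix.transvection i1 i0 1 * Matrix.transvection i0 i1 (-1) = _
    simp only [Matrix.mul_assoc]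
  rw [e, x_mul i0 i1 h, y_mul i0 i1 h, x_mul i0 i1 h, x_mul i0 i1 h, y_mul i0 i1 h,
    x_mul i0 i1 h, ← G_diag i0 i1 h]
  congr 1 <;> field_simp <;> ring

/-- conjugation by a matrix whose first column is a multiple of `e_0` preserves `V1` -/
theorem conj_mem_V1 (T T' : SpecialLinearGroup (Fin n) K) (hTT' : T * T' = 1)
    (hT : ∀ r : Fin n, r.val ≠ 0 → ∀ z : Fin n, z.val = 0 → T r z = 0)
    (hT' : ∀ r : Fin n, r.val ≠ 0 → ∀ z : Fin n, z.val = 0 → T' r z = 0)
    (v : SpecialLinearGroup (Fin n) K) (hv : v ∈ V1 n K) : T * v * T' ∈ V1 n K := by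
  rw [mem_V1] at hv ⊢
  have hTT'm : (T : Matrix (Fin n) (Fin n) K) * (T' : Matrix (Fin n) (Fin n) K) = 1 :=
    congrArg Subtype.val hTT'
  have hvrow : ∀ j m : Fin n, j.val ≠ 0 → v j m = (1 : Matrix (Fin n) (Fin n) K) j m := by
    intro j m hj
    by_cases hjm : j = m
    · subst hjm; rw [hv.2, Matrix.one_apply_eq]
    · rw [hv.1 j m hjm hj, Matrix.one_apply_ne hjm]
  have L1 : ∀ r m : Fin n, r.val ≠ 0 →
      ((T : Matrix (Fin n) (Fin n) K) * (v : Matrix (Fin n) (Fin n) K)) r m = T r m := by
    intro r m hr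
    rw [Matrix.mul_apply]
    have h1 : ∀ j : Fin n, T r j * v j m = T r j * (1 : Matrix (Fin n) (Fin n) K) j m := by
      intro j
      by_cases hj : j.val = 0
      · rw [hT r hr j hj, zero_mul, zero_mul]
      · rw [hvrow j m hj]
    rw [Finset.sum_congr rfl (fun j _ => h1 j), ← Matrix.mul_apply, Matrix.mul_one]
  have L2 : ∀ r c : Fin n, r.val ≠ 0 → (T * v * T') r c = (1 : Matrix (Fin n) (Fin n) K) r c := by
    intro r c hr
    show ((T : Matrix (Fin n) (Fin n) K) * (v : Matrix (Fin n) (Fin n) K) *
      (T' : Matrix (Fin n) (Fin n) K)) r c = _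
    rw [Matrix.mul_apply, Finset.sum_congr rfl (fun m _ => by rw [L1 r m hr]), ← Matrix.mul_apply,
      hTT'm]
  constructor
  · intro i j hij hi
    rw [L2 i j hi, Matrix.one_apply_ne hij]
  · intro i
    by_cases hi : i.val = 0
    · show ((T : Matrix (Fin n) (Fin n) K) * (v : Matrix (Fin n) (Fin n) K) *
        (T' : Matrix (Fin n) (Fin n) K)) i i = 1
      have hne : ∀ j : Fin n, j ≠ i → j.val ≠ 0 := fun j hji h => hji (Fin.ext (h.trans hi.symm))
      rw [Matrix.mul_apply, Finset.sum_eq_single i]
      · have h1 : ((T : Matrix (Fin n) (Fin n) K) * (v : Matrix (Fin n) (Fin n) K)) i i = T i i := by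
          rw [Matrix.mul_apply, Finset.sum_eq_single i]
          · rw [hv.2 i, mul_one]
          · intro j _ hji
            rw [hv.1 j i hji (hne j hji), mul_zero]
          · intro h; exact absurd (Finset.mem_univ i) h
        have h2 : ((T : Matrix (Fin n) (Fin n) K) * (T' : Matrix (Fin n) (Fin n) K)) i i
            = T i i * T' i i := by
          rw [Matrix.mul_apply, Finset.sum_eq_single i]
          · intro j _ hji
            rw [hT' j (hne j hji) i hi, mul_zero]
          · intro h; exact absurd (Finset.mem_univ i) h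
        rw [h1, ← h2, hTT'm, Matrix.one_apply_eq]
      · intro m _ hmi
        rw [hT' m (hne m hmi) i hi, mul_zero]
      · intro h; exact absurd (Finset.mem_univ i) h
    · rw [L2 i i hi, Matrix.one_apply_eq]

/-- conjugation by a matrix whose last row is a multiple of `e_{n-1}` preserves `V2` -/
theorem conj_mem_V2 (T T' : SpecialLinearGroup (Fin n) K) (hTT' : T * T' = 1)
    (hT : ∀ z : Fin n, z.val + 1 = n → ∀ r : Fin n, r.val + 1 ≠ n → T z r = 0)
    (hT' : ∀ z : Fin n, z.val + 1 = n → ∀ r : Fin n, r.val + 1 ≠ n → T' z r = 0)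
    (v : SpecialLinearGroup (Fin n) K) (hv : v ∈ V2 n K) : T * v * T' ∈ V2 n K := by
  rw [mem_V2] at hv ⊢
  have hTT'm : (T : Matrix (Fin n) (Fin n) K) * (T' : Matrix (Fin n) (Fin n) K) = 1 :=
    congrArg Subtype.val hTT'
  have hvcol : ∀ m j : Fin n, j.val + 1 ≠ n → v m j = (1 : Matrix (Fin n) (Fin n) K) m j := by
    intro m j hj
    by_cases hmj : m = j
    · subst hmj; rw [hv.2, Matrix.one_apply_eq]
    · rw [hv.1 m j hmj hj, Matrix.one_apply_ne hmj]
  have L1 : ∀ m c : Fin n, c.val + 1 ≠ n →
      ((v : Matrix (Fin n) (Fin n) K) * (T' : Matrix (Fin n) (Fin n) K)) m c = T' m c := by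
    intro m c hc
    rw [Matrix.mul_apply]
    have h1 : ∀ j : Fin n, v m j * T' j c = (1 : Matrix (Fin n) (Fin n) K) m j * T' j c := by
      intro j
      by_cases hj : j.val + 1 = n
      · rw [hT' j hj c hc, mul_zero, mul_zero]
      · rw [hvcol m j hj]
    rw [Finset.sum_congr rfl (fun j _ => h1 j), ← Matrix.mul_apply, Matrix.one_mul]
  have L2 : ∀ r c : Fin n, c.val + 1 ≠ n → (T * v * T') r c = (1 : Matrix (Fin n) (Fin n) K) r c := by
    intro r c hc
    show ((T : Matrix (Fin n) (Fin n) K) * (v : Matrix (Fin n) (Fin n) K) *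
      (T' : Matrix (Fin n) (Fin n) K)) r c = _
    rw [Matrix.mul_assoc, Matrix.mul_apply,
      Finset.sum_congr rfl (fun m _ => by rw [L1 m c hc]), ← Matrix.mul_apply, hTT'm]
  constructor
  · intro i j hij hj
    rw [L2 i j hj, Matrix.one_apply_ne hij]
  · intro i
    by_cases hi : i.val + 1 = n
    · show ((T : Matrix (Fin n) (Fin n) K) * (v : Matrix (Fin n) (Fin n) K) *
        (T' : Matrix (Fin n) (Fin n) K)) i i = 1
      have hne : ∀ j : Fin n, j ≠ i → j.val + 1 ≠ n :=
        fun j hji h => hji (Fin.ext (by omega))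
      rw [Matrix.mul_assoc, Matrix.mul_apply, Finset.sum_eq_single i]
      · have h1 : ((v : Matrix (Fin n) (Fin n) K) * (T' : Matrix (Fin n) (Fin n) K)) i i
            = T' i i := by
          rw [Matrix.mul_apply, Finset.sum_eq_single i]
          · rw [hv.2 i, one_mul]
          · intro j _ hji
            rw [hv.1 i j (Ne.symm hji) (hne j hji), zero_mul]
          · intro h; exact absurd (Finset.mem_univ i) h
        have h2 : ((T : Matrix (Fin n) (Fin n) K) * (T' : Matrix (Fin n) (Fin n) K)) i i
            = T i i * T' i i := by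
          rw [Matrix.mul_apply, Finset.sum_eq_single i]
          · intro j _ hji
            rw [hT i hi j (hne j hji), zero_mul]
          · intro h; exact absurd (Finset.mem_univ i) h
        rw [h1, ← h2, hTT'm, Matrix.one_apply_eq]
      · intro m _ hmi
        rw [hT i hi m (hne m hmi), zero_mul]
      · intro h; exact absurd (Finset.mem_univ i) h
    · rw [L2 i i hi, Matrix.one_apply_eq]

theorem transv_mul_neg {k l : Fin n} (hkl : k ≠ l) (a : K) :
    SpecialLinearGroup.transvection hkl a * SpecialLinearGroup.transvection hkl (-a) = 1 := by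
  apply Subtype.ext
  show Matrix.transvection k l a * Matrix.transvection k l (-a) = 1
  rw [Matrix.transvection_mul_transvection_same _ _ hkl, add_neg_cancel, Matrix.transvection_zero]

theorem transv_pow {k l : Fin n} (hkl : k ≠ l) (a : K) (m : ℕ) :
    (SpecialLinearGroup.transvection hkl a) ^ m = SpecialLinearGroup.transvection hkl (m • a) := by
  induction m with
  | zero =>
    rw [pow_zero, zero_smul]
    apply Subtype.ext
    show (1 : Matrix (Fin n) (Fin n) K) = Matrix.transvection k l 0
    rw [Matrix.transvection_zero]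
  | succ m ih =>
    rw [pow_succ, ih]
    apply Subtype.ext
    show Matrix.transvection k l (m • a) * Matrix.transvection k l a = Matrix.transvection k l ((m + 1) • a)
    rw [Matrix.transvection_mul_transvection_same _ _ hkl, add_smul, one_smul]

theorem transv_entry {k l : Fin n} (hkl : k ≠ l) (a : K) (r c : Fin n) (hrc : r ≠ c)
    (h : ¬ (k = r ∧ l = c)) : (SpecialLinearGroup.transvection hkl a) r c = 0 := by
  show (Matrix.transvection k l a) r c = 0
  simp only [Matrix.transvection, Matrix.add_apply, Matrix.one_apply_ne hrc, zero_add]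
  rw [Matrix.single_apply, if_neg h]

end Mat

section Fin
variable {n : ℕ} {K : Type u} [Field K] [Fintype K] {p : ℕ} [Fact p.Prime] [CharP K p]

theorem finite_psl : Finite (ProjectiveSpecialLinearGroup (Fin n) K) := by
  have : Finite (SpecialLinearGroup (Fin n) K) := by
    unfold Matrix.SpecialLinearGroup
    infer_instance
  unfold ProjectiveSpecialLinearGroup
  infer_instance

theorem order_transv {k l : Fin n} (hkl : k ≠ l) (a : K) :
    ∃ e : ℕ, orderOf (proj n K (SpecialLinearGroup.transvection hkl a)) = p ^ e := by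
  have hp : p.Prime := Fact.out
  have h1 : (proj n K (SpecialLinearGroup.transvection hkl a)) ^ p = 1 := by
    rw [← map_pow, transv_pow, nsmul_eq_mul, CharP.cast_eq_zero K p, zero_mul]
    have : SpecialLinearGroup.transvection hkl (0 : K) = 1 := by
      apply Subtype.ext
      show Matrix.transvection k l (0 : K) = 1
      rw [Matrix.transvection_zero]
    rw [this, map_one]
  have h2 := orderOf_dvd_of_pow_eq_one h1
  rcases (Nat.dvd_prime hp).mp h2 with h | h
  · exact ⟨0, by rw [h, pow_zero]⟩
  · exact ⟨1, by rw [h, pow_one]⟩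

theorem transv_mem_R1 {k l : Fin n} (hkl : k ≠ l) (hl : l.val ≠ 0) (a : K) :
    proj n K (SpecialLinearGroup.transvection hkl a) ∈
      {x : ProjectiveSpecialLinearGroup (Fin n) K |
        x ∈ Subgroup.normalizer (R1 n K : Set (ProjectiveSpecialLinearGroup (Fin n) K)) ∧
        ∃ e : ℕ, orderOf x = p ^ e} := by
  have := finite_psl (n := n) (K := K)
  refine ⟨mem_normalizer_of_conj _ _ ?_, order_transv hkl a⟩
  rintro _ ⟨v, hv, rfl⟩
  have hinv : (SpecialLinearGroup.transvection hkl a)⁻¹ = SpecialLinearGroup.transvection hkl (-a) :=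
    inv_eq_of_mul_eq_one_right (transv_mul_neg hkl a)
  rw [← map_inv, ← map_mul, ← map_mul, hinv]
  refine Subgroup.mem_map_of_mem _ (conj_mem_V1 _ _ (transv_mul_neg hkl a) ?_ ?_ v hv)
  · intro r hr z hz
    refine transv_entry hkl a r z (fun h => hr (h ▸ hz)) ?_
    rintro ⟨-, h2⟩
    exact hl (h2 ▸ hz)
  · intro r hr z hz
    refine transv_entry hkl (-a) r z (fun h => hr (h ▸ hz)) ?_
    rintro ⟨-, h2⟩
    exact hl (h2 ▸ hz)

theorem transv_mem_R2 {k l : Fin n} (hkl : k ≠ l) (hk : k.val + 1 ≠ n) (a : K) :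
    proj n K (SpecialLinearGroup.transvection hkl a) ∈
      {x : ProjectiveSpecialLinearGroup (Fin n) K |
        x ∈ Subgroup.normalizer (R2 n K : Set (ProjectiveSpecialLinearGroup (Fin n) K)) ∧
        ∃ e : ℕ, orderOf x = p ^ e} := by
  have := finite_psl (n := n) (K := K)
  refine ⟨mem_normalizer_of_conj _ _ ?_, order_transv hkl a⟩
  rintro _ ⟨v, hv, rfl⟩
  have hinv : (SpecialLinearGroup.transvection hkl a)⁻¹ = SpecialLinearGroup.transvection hkl (-a) :=
    inv_eq_of_mul_eq_one_right (transv_mul_neg hkl a)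
  rw [← map_inv, ← map_mul, ← map_mul, hinv]
  refine Subgroup.mem_map_of_mem _ (conj_mem_V2 _ _ (transv_mul_neg hkl a) ?_ ?_ v hv)
  · intro z hz r hr
    refine transv_entry hkl a z r (fun h => hr (h ▸ hz)) ?_
    rintro ⟨h1, -⟩
    exact hk (h1 ▸ hz)
  · intro z hz r hr
    refine transv_entry hkl (-a) z r (fun h => hr (h ▸ hz)) ?_
    rintro ⟨h1, -⟩
    exact hk (h1 ▸ hz)

/-- a diagonal matrix normalizes the unitriangular group -/
theorem diag_normalizes (D : SpecialLinearGroup (Fin n) K) (g : Fin n → K)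
    (hD : (D : Matrix (Fin n) (Fin n) K) = Matrix.diagonal g) (hg : ∀ i, g i ≠ 0) :
    proj n K D ∈ Subgroup.normalizer (Ubar n K : Set (ProjectiveSpecialLinearGroup (Fin n) K)) := by
  have := finite_psl (n := n) (K := K)
  refine mem_normalizer_of_conj _ _ ?_
  rintro _ ⟨u, hu, rfl⟩
  rw [← map_inv, ← map_mul, ← map_mul]
  refine Subgroup.mem_map_of_mem _ ?_
  have hu : u ∈ Uni n K := hu
  rw [mem_Uni] at hu ⊢
  have key : ∀ r s : Fin n, (D * u * D⁻¹) r s * g s = g r * u r s := by
    intro r s
    have h1 : (D * u * D⁻¹) * D = D * u := by group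
    have h2 : ((D * u * D⁻¹ : SpecialLinearGroup (Fin n) K) : Matrix (Fin n) (Fin n) K)
        * (D : Matrix (Fin n) (Fin n) K)
        = (D : Matrix (Fin n) (Fin n) K) * (u : Matrix (Fin n) (Fin n) K) :=
      congrArg Subtype.val h1
    have h3 := congrFun (congrFun h2 r) s
    rw [hD, Matrix.mul_diagonal, Matrix.diagonal_mul] at h3
    exact h3
  constructor
  · intro i j hji
    have h := key i j
    rw [hu.1 i j hji, mul_zero] at h
    rcases mul_eq_zero.mp h with h | h
    · exact h
    · exact absurd h (hg j)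
  · intro i
    have h := key i i
    rw [hu.2 i, mul_one] at h
    have h' : ((D * u * D⁻¹) i i - 1) * g i = 0 := by rw [sub_mul, h, one_mul, sub_self]
    rcases mul_eq_zero.mp h' with h | h
    · exact sub_eq_zero.mp h
    · exact absurd h (hg i)

/-- the generating set of the statement -/
def Gen (n : ℕ) (K : Type u) [Field K] (p : ℕ) : Set (ProjectiveSpecialLinearGroup (Fin n) K) :=
  {h : ProjectiveSpecialLinearGroup (Fin n) K |
    h ∈ Subgroup.normalizer (Ubar n K : Set (ProjectiveSpecialLinearGroup (Fin n) K)) ∧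
    ∃ R ∈ ({R1 n K, R2 n K} : Set (Subgroup (ProjectiveSpecialLinearGroup (Fin n) K))),
      h ∈ Subgroup.closure {k : ProjectiveSpecialLinearGroup (Fin n) K |
        k ∈ Subgroup.normalizer (R : Set (ProjectiveSpecialLinearGroup (Fin n) K)) ∧
        ∃ e : ℕ, orderOf k = p ^ e}}

theorem H_mem_Gen (hn : 3 ≤ n) (i0 i1 : Fin n) (h01 : i0.val + 1 = i1.val) (c : K) (hc : c ≠ 0) :
    proj n K (H i0 i1 (fun h => by rw [h] at h01; omega) c) ∈ Gen n K p := by
  have hne : i0 ≠ i1 := fun h => by rw [h] at h01; omega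
  refine ⟨diag_normalizes _ _ (H_coe i0 i1 hne c hc) ?_, ?_⟩
  · intro i
    split_ifs
    · exact hc
    · exact inv_ne_zero hc
    · exact one_ne_zero
  · by_cases h0 : i0.val = 0
    · -- use R2
      refine ⟨R2 n K, Or.inr rfl, ?_⟩
      have hk0 : i0.val + 1 ≠ n := by omega
      have hk1 : i1.val + 1 ≠ n := by omega
      unfold H
      simp only [map_mul]
      exact mul_mem (mul_mem (mul_mem (mul_mem (mul_mem
        (Subgroup.subset_closure (transv_mem_R2 hne hk0 c))
        (Subgroup.subset_closure (transv_mem_R2 (Ne.symm hne) hk1 (-c⁻¹))))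
        (Subgroup.subset_closure (transv_mem_R2 hne hk0 c)))
        (Subgroup.subset_closure (transv_mem_R2 hne hk0 (-1))))
        (Subgroup.subset_closure (transv_mem_R2 (Ne.symm hne) hk1 1)))
        (Subgroup.subset_closure (transv_mem_R2 hne hk0 (-1)))
    · refine ⟨R1 n K, Or.inl rfl, ?_⟩
      have hl1 : i1.val ≠ 0 := by omega
      unfold H
      simp only [map_mul]
      exact mul_mem (mul_mem (mul_mem (mul_mem (mul_mem
        (Subgroup.subset_closure (transv_mem_R1 hne hl1 c))
        (Subgroup.subset_closure (transv_mem_R1 (Ne.symm hne) h0 (-c⁻¹))))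
        (Subgroup.subset_closure (transv_mem_R1 hne hl1 c)))
        (Subgroup.subset_closure (transv_mem_R1 hne hl1 (-1))))
        (Subgroup.subset_closure (transv_mem_R1 (Ne.symm hne) h0 1)))
        (Subgroup.subset_closure (transv_mem_R1 hne hl1 (-1)))

theorem diag_mem (hn : 3 ≤ n) (d : ℕ) :
    ∀ (m : ℕ), n - m = d → ∀ t : SpecialLinearGroup (Fin n) K,
      (∀ i j : Fin n, i ≠ j → t i j = 0) → (∀ j : Fin n, j.val < m → t j j = 1) →
      proj n K t ∈ Subgroup.closure (Gen n K p) := by
  induction d with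
  | zero =>
    intro m hm t ht h1
    have : t = 1 := by
      apply Subtype.ext
      ext i j
      show t i j = (1 : Matrix (Fin n) (Fin n) K) i j
      by_cases hij : i = j
      · subst hij
        rw [h1 i (by have := i.isLt; omega), Matrix.one_apply_eq]
      · rw [ht i j hij, Matrix.one_apply_ne hij]
    rw [this, map_one]
    exact one_mem _
  | succ d ih =>
    intro m hm t ht h1
    have htd : (t : Matrix (Fin n) (Fin n) K) = Matrix.diagonal (fun i => t i i) := by
      ext i j
      by_cases hij : i = j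
      · subst hij; rw [Matrix.diagonal_apply_eq]
      · rw [Matrix.diagonal_apply_ne _ hij]; exact ht i j hij
    have hdet : ∏ i, t i i = 1 := by
      have h2 : (t : Matrix (Fin n) (Fin n) K).det = 1 := t.2
      rw [htd, Matrix.det_diagonal] at h2
      exact h2
    have hmn : m < n := by omega
    by_cases hlast : m + 1 = n
    · -- all but the last entry are one, hence so is the last
      refine ih (m + 1) (by omega) t ht ?_
      intro j hj
      by_cases hjm : j.val < m
      · exact h1 j hjm
      · have hjm' : j.val = m := by omega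
        rw [Finset.prod_eq_single j] at hdet
        · exact hdet
        · intro b _ hbj
          have : b.val ≠ j.val := fun h => hbj (Fin.ext h)
          exact h1 b (by have := b.isLt; omega)
        · intro h; exact absurd (Finset.mem_univ j) h
    · have hm1 : m + 1 < n := by omega
      set i0 : Fin n := ⟨m, hmn⟩ with hi0
      set i1 : Fin n := ⟨m + 1, hm1⟩ with hi1
      have h01 : i0.val + 1 = i1.val := rfl
      have hne : i0 ≠ i1 := fun h => by
        have := congrArg Fin.val h
        simp [hi0, hi1] at this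
      have hc : t i0 i0 ≠ 0 := by
        intro h0
        have : ∏ i, t i i = 0 := Finset.prod_eq_zero (Finset.mem_univ i0) h0
        rw [hdet] at this
        exact one_ne_zero this
      have hc' : (t i0 i0)⁻¹ ≠ 0 := inv_ne_zero hc
      have hHm := H_mem_Gen (p := p) hn i0 i1 h01 (t i0 i0)⁻¹ hc'
      have hcoe := H_coe i0 i1 hne (t i0 i0)⁻¹ hc'
      have hentry : ∀ r s : Fin n, (H i0 i1 hne (t i0 i0)⁻¹ * t) r s
          = (if r = i0 then (t i0 i0)⁻¹ else if r = i1 then ((t i0 i0)⁻¹)⁻¹ else 1) * t r s := by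
        intro r s
        show ((H i0 i1 hne (t i0 i0)⁻¹ : Matrix (Fin n) (Fin n) K)
          * (t : Matrix (Fin n) (Fin n) K)) r s = _
        rw [hcoe, Matrix.diagonal_mul]
      have h2 := ih (m + 1) (by omega) (H i0 i1 hne (t i0 i0)⁻¹ * t) ?_ ?_
      · have h3 : proj n K t = (proj n K (H i0 i1 hne (t i0 i0)⁻¹))⁻¹ *
            proj n K (H i0 i1 hne (t i0 i0)⁻¹ * t) := by
          rw [map_mul, inv_mul_cancel_left]
        rw [h3]
        exact mul_mem (inv_mem (Subgroup.subset_closure hHm)) h2
      · intro i j hij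
        rw [hentry, ht i j hij, mul_zero]
      · intro j hj
        rw [hentry]
        by_cases hj0 : j = i0
        · rw [if_pos hj0, hj0]
          exact inv_mul_cancel₀ hc
        · have hjm : j.val < m := by
            have : j.val ≠ m := fun h => hj0 (Fin.ext h)
            omega
          have hj1 : j ≠ i1 := fun h => by
            have := congrArg Fin.val h
            simp [hi1] at this
            omega
          rw [if_neg hj0, if_neg hj1, one_mul]
          exact h1 j hjm

end Fin

theorem main : Cfsg.Agent.H84.PslStmt.DiagMemGen.{u} := by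
  intro n K _ _ p _ _ hn t ht
  exact diag_mem hn (n - 0) 0 rfl t ht (fun j hj => absurd hj (Nat.not_lt_zero _))

end Cfsg.Agent.Lib.Helper52.PslP7c
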