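import Mathlib
import Cfsg.Prelude.Def_SporadicB
import Cfsg.Agent.Lib.Helper21.W3Class

set_option autoImplicit false

/-!
# 3-transposition sets in which the commuting partners of every member form a line

Basic lemmas: if the commuting partners `Pt D d` of `d` generate a copy of `S₃`, then
`Pt D d` consists of exactly three pairwise non-commuting members `a, b, a b a`.
-/

namespace Cfsg.Agent.Lib.Helper52.TT3Basic

open Cfsg Subgroup
open Cfsg.Agent.Lib.Helper21.W3Apps Cfsg.Agent.Lib.Helper21.W3Class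

universe u
variable {G : Type u} [Group G] {D : Set G}

/-- The local hypothesis: the commuting partners of every member generate a copy of `S₃`. -/
def Loc (D : Set G) : Prop :=
  ∀ d ∈ D, Nonempty (↥(Subgroup.closure (Pt D d)) ≃* Equiv.Perm (Fin 3))

set_option synthInstance.maxSize 2000 in
set_option synthInstance.maxHeartbeats 200000 in
theorem p3_four : ∀ s₁ s₂ s₃ s₄ : Equiv.Perm (Fin 3), (s₁ ≠ 1 ∧ s₁ * s₁ = 1 ∧ s₂ ≠ 1 ∧
    s₂ * s₂ = 1 ∧ s₃ ≠ 1 ∧ s₃ * s₃ = 1 ∧ s₄ ≠ 1 ∧ s₄ * s₄ = 1 ∧ s₁ ≠ s₂ ∧ s₁ ≠ s₃ ∧ s₂ ≠ s₃) →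
    s₄ = s₁ ∨ s₄ = s₂ ∨ s₄ = s₃ := by
  decide

theorem p3_noncomm : ∀ s t : Equiv.Perm (Fin 3), s ≠ 1 → s * s = 1 → t ≠ 1 → t * t = 1 →
    s ≠ t → s * t ≠ t * s := by
  decide

theorem p3_center : ∀ s : Equiv.Perm (Fin 3), (∀ t, s * t = t * s) → s = 1 := by
  decide

theorem p3_not_comm : ∃ s t : Equiv.Perm (Fin 3), s * t ≠ t * s := by
  decide

theorem mul_mul_mem (hD : IsThreeTranspositionSet D)
    (hconj : ∀ g : G, ∀ d ∈ D, g * d * g⁻¹ ∈ D) {a b : G} (ha : a ∈ D) (hb : b ∈ D) :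
    a * b * a ∈ D := by
  have := hconj a b hb
  rwa [tt_inv hD ha] at this

theorem cube_of_not_comm (hD : IsThreeTranspositionSet D) {a b : G} (ha : a ∈ D) (hb : b ∈ D)
    (h : ¬ Commute a b) : (a * b) ^ 3 = 1 := by
  rcases tt_cases hD ha hb with h' | h'
  · exact absurd h' h
  · exact h'

theorem Pt_symm {d a : G} (hd : d ∈ D) (ha : a ∈ Pt D d) : d ∈ Pt D a :=
  ⟨hd, fun h => ha.2.1 h.symm, ha.2.2.symm⟩

/-- the image in `S₃` of a commuting partner is an involution -/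
theorem img_props (hD : IsThreeTranspositionSet D) {d : G}
    (ψ : ↥(Subgroup.closure (Pt D d)) ≃* Equiv.Perm (Fin 3)) {y : G} (hy : y ∈ Pt D d) :
    ψ ⟨y, Subgroup.subset_closure hy⟩ ≠ 1 ∧
      ψ ⟨y, Subgroup.subset_closure hy⟩ * ψ ⟨y, Subgroup.subset_closure hy⟩ = 1 := by
  constructor
  · intro h
    have h1 : (⟨y, Subgroup.subset_closure hy⟩ : ↥(Subgroup.closure (Pt D d))) = 1 := by
      apply ψ.injective; rw [h, map_one]
    have h2 : y = 1 := congrArg Subtype.val h1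
    exact tt_ne_one hD hy.1 h2
  · rw [← map_mul]
    have h1 : (⟨y, Subgroup.subset_closure hy⟩ : ↥(Subgroup.closure (Pt D d))) *
        ⟨y, Subgroup.subset_closure hy⟩ = 1 := by
      apply Subtype.ext
      exact tt_sq hD hy.1
    rw [h1, map_one]

theorem Pt_noncomm (hD : IsThreeTranspositionSet D) (hL : Loc D) {d : G} (hd : d ∈ D)
    {y z : G} (hy : y ∈ Pt D d) (hz : z ∈ Pt D d) (hne : y ≠ z) : ¬ Commute y z := by
  obtain ⟨ψ⟩ := hL d hd
  intro hc
  obtain ⟨hy1, hy2⟩ := img_props hD ψ hy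
  obtain ⟨hz1, hz2⟩ := img_props hD ψ hz
  have hne' : ψ ⟨y, Subgroup.subset_closure hy⟩ ≠ ψ ⟨z, Subgroup.subset_closure hz⟩ := by
    intro h
    have := ψ.injective h
    exact hne (congrArg Subtype.val this)
  apply p3_noncomm _ _ hy1 hy2 hz1 hz2 hne'
  rw [← map_mul, ← map_mul]
  congr 1
  apply Subtype.ext
  exact hc

theorem Pt_cases (hD : IsThreeTranspositionSet D) (hL : Loc D) {d : G} (hd : d ∈ D)
    {u v w y : G} (hu : u ∈ Pt D d) (hv : v ∈ Pt D d) (hw : w ∈ Pt D d) (hy : y ∈ Pt D d)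
    (huv : u ≠ v) (huw : u ≠ w) (hvw : v ≠ w) : y = u ∨ y = v ∨ y = w := by
  obtain ⟨ψ⟩ := hL d hd
  obtain ⟨hu1, hu2⟩ := img_props hD ψ hu
  obtain ⟨hv1, hv2⟩ := img_props hD ψ hv
  obtain ⟨hw1, hw2⟩ := img_props hD ψ hw
  obtain ⟨hy1, hy2⟩ := img_props hD ψ hy
  have key : ∀ {p q : G} (hp : p ∈ Pt D d) (hq : q ∈ Pt D d),
      ψ ⟨p, Subgroup.subset_closure hp⟩ = ψ ⟨q, Subgroup.subset_closure hq⟩ → p = q := by
    intro p q hp hq h
    exact congrArg Subtype.val (ψ.injective h)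
  rcases p3_four _ _ _ _ ⟨hu1, hu2, hv1, hv2, hw1, hw2, hy1, hy2,
    (fun h => huv (key hu hv h)), (fun h => huw (key hu hw h)), (fun h => hvw (key hv hw h))⟩
    with h | h | h
  · exact Or.inl (key hy hu h)
  · exact Or.inr (Or.inl (key hy hv h))
  · exact Or.inr (Or.inr (key hy hw h))

theorem Pt_exists_pair (hL : Loc D) {d : G} (hd : d ∈ D) :
    ∃ a b, a ∈ Pt D d ∧ b ∈ Pt D d ∧ ¬ Commute a b := by
  obtain ⟨ψ⟩ := hL d hd
  by_contra hcon
  push Not at hcon
  have h1 : ∀ x ∈ Subgroup.closure (Pt D d), ∀ s ∈ Pt D d, s * x = x * s := by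
    intro x hx
    induction hx using Subgroup.closure_induction with
    | mem y hy => intro s hs; exact (hcon s y hs hy)
    | one => intro s _; rw [mul_one, one_mul]
    | mul y z _ _ ihy ihz =>
      intro s hs
      rw [← mul_assoc, ihy s hs, mul_assoc, ihz s hs, mul_assoc]
    | inv y _ ihy =>
      intro s hs
      have := ihy s hs
      calc s * y⁻¹ = y⁻¹ * (y * s) * y⁻¹ := by group
        _ = y⁻¹ * (s * y) * y⁻¹ := by rw [this]
        _ = y⁻¹ * s := by group
  have h2 : ∀ x ∈ Subgroup.closure (Pt D d), ∀ y ∈ Subgroup.closure (Pt D d), y * x = x * y := by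
    intro x hx y hy
    induction hy using Subgroup.closure_induction with
    | mem s hs => exact h1 x hx s hs
    | one => rw [mul_one, one_mul]
    | mul y z _ _ ihy ihz => rw [mul_assoc, ihz, ← mul_assoc, ihy, mul_assoc]
    | inv y _ ihy =>
      calc y⁻¹ * x = y⁻¹ * (x * y) * y⁻¹ := by group
        _ = y⁻¹ * (y * x) * y⁻¹ := by rw [ihy]
        _ = x * y⁻¹ := by group
  obtain ⟨s, t, hst⟩ := p3_not_comm
  apply hst
  obtain ⟨x, rfl⟩ := ψ.surjective s
  obtain ⟨y, rfl⟩ := ψ.surjective t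
  rw [← map_mul, ← map_mul]
  congr 1
  apply Subtype.ext
  exact h2 y.1 y.2 x.1 x.2

theorem Pt_third (hD : IsThreeTranspositionSet D)
    (hconj : ∀ g : G, ∀ d ∈ D, g * d * g⁻¹ ∈ D) {d a b : G}
    (ha : a ∈ Pt D d) (hb : b ∈ Pt D d) (hab : ¬ Commute a b) :
    a * b * a ∈ Pt D d ∧ a * b * a ≠ a ∧ a * b * a ≠ b := by
  have ha2 := tt_sq hD ha.1
  have hb2 := tt_sq hD hb.1
  have hca : d * a = a * d := ha.2.2
  have hcb : d * b = b * d := hb.2.2
  have h1 : a * b * a ≠ a := by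
    intro h
    have : b = a := by
      calc b = a * (a * b * a) * a := by
            calc b = (a * a) * b * (a * a) := by rw [ha2, one_mul, mul_one]
              _ = a * (a * b * a) * a := by group
        _ = a * a * a := by rw [h]
        _ = a := by rw [ha2, one_mul]
    apply hab; rw [this]
  have h2 : a * b * a ≠ b := by
    intro h
    apply hab
    show a * b = b * a
    calc a * b = a * b * (a * a) := by rw [ha2, mul_one]
      _ = (a * b * a) * a := by group
      _ = b * a := by rw [h]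
  refine ⟨⟨mul_mul_mem hD hconj ha.1 hb.1, ?_, ?_⟩, h1, h2⟩
  · intro h
    -- a b a = d, so b = a d a = d
    have : b = d := by
      calc b = (a * a) * b * (a * a) := by rw [ha2, one_mul, mul_one]
        _ = a * (a * b * a) * a := by group
        _ = a * d * a := by rw [h]
        _ = (d * a) * a := by rw [hca]
        _ = d := by rw [mul_assoc, ha2, mul_one]
    exact hb.2.1 this
  · show d * (a * b * a) = a * b * a * d
    calc d * (a * b * a) = (d * a) * b * a := by group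
      _ = a * (d * b) * a := by rw [hca]; group
      _ = a * b * (d * a) := by rw [hcb]; group
      _ = a * b * a * d := by rw [hca]; group

/-- the commuting partners of `d` are exactly `a, b, a b a` -/
theorem Pt_eq (hD : IsThreeTranspositionSet D) (hL : Loc D)
    (hconj : ∀ g : G, ∀ d ∈ D, g * d * g⁻¹ ∈ D) {d a b : G} (hd : d ∈ D)
    (ha : a ∈ Pt D d) (hb : b ∈ Pt D d) (hab : a ≠ b) {y : G} (hy : y ∈ Pt D d) :
    y = a ∨ y = b ∨ y = a * b * a := by
  have hnc := Pt_noncomm hD hL hd ha hb hab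
  obtain ⟨h1, h2, h3⟩ := Pt_third hD hconj ha hb hnc
  exact Pt_cases hD hL hd ha hb h1 hy hab (fun h => h2 h.symm) (fun h => h3 h.symm)

end Cfsg.Agent.Lib.Helper52.TT3Basic
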