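import Mathlib

/-!
Two lemmas on finite fields of endomorphisms used for semilinear descent:
`card_of_aut` (Artin: a finite domain with an automorphism of prime order `p` fixing only `0, 1`
has `2 ^ p` elements) and `dedekind_sub` (independence of characters, relative to a submodule).
-/

set_option autoImplicit false

namespace Cfsg.Agent.Lib.Helper52.SemiLin

theorem card_of_aut (R : Type*) [Ring R] [Finite R] [IsDomain R] (σ : R ≃+* R) (p : ℕ)
    (hp : p.Prime) (hσp : σ ^ p = 1) (hσ1 : σ ≠ 1) (hfix : ∀ x : R, σ x = x → x = 0 ∨ x = 1) :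
    Nat.card R = 2 ^ p := by
  classical
  let _ : Field R := (Finite.isDomain_to_isField R).toField
  have : Fintype R := Fintype.ofFinite R
  let Γ : Subgroup (R ≃+* R) := Subgroup.zpowers σ
  have : Finite (R ≃+* R) :=
    Finite.of_injective (fun f : R ≃+* R => (f : R → R)) DFunLike.coe_injective
  have : Fintype Γ := Fintype.ofFinite Γ
  have h1 := FixedPoints.finrank_eq_card Γ R
  have hcard : Fintype.card Γ = p := by
    rw [Fintype.card_eq_nat_card, Nat.card_zpowers]
    have : Fact p.Prime := ⟨hp⟩
    exact orderOf_eq_prime hσp hσ1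
  have hmem : ∀ x : R, x ∈ FixedPoints.subfield Γ R ↔ (x = 0 ∨ x = 1) := by
    intro x
    constructor
    · intro hx
      have h2 : (⟨σ, Subgroup.mem_zpowers σ⟩ : Γ) • x = x := hx _
      exact hfix x h2
    · rintro (rfl | rfl)
      · exact zero_mem _
      · exact one_mem _
  have hF : Fintype.card (FixedPoints.subfield Γ R) = 2 := by
    rw [Fintype.card_eq_nat_card, Nat.card_eq_two_iff]
    refine ⟨0, 1, zero_ne_one, ?_⟩
    ext x
    simp only [Set.mem_insert_iff, Set.mem_singleton_iff, Set.mem_univ, iff_true]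
    rcases (hmem x.1).1 x.2 with h | h
    · left; exact Subtype.ext h
    · right; exact Subtype.ext h
  have h2 := Module.card_eq_pow_finrank (K := FixedPoints.subfield Γ R) (V := R)
  rw [Nat.card_eq_fintype_card, h2, h1, hcard, hF]

/-- Independence of characters relative to a submodule: if `∑ χ i d • w i ∈ U` for all `d`, with
pairwise distinct multiplicative `χ i`, then every `w i` lies in `U`. -/
theorem dedekind_sub {R V : Type*} [Ring R] (hcomm : ∀ a b : R, a * b = b * a)
    [AddCommGroup V] [Module R V] (U : Submodule R V) (hU : ∀ (r : R) (v : V), r • v ∈ U → r = 0 ∨ v ∈ U)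
    {ι : Type*} [DecidableEq ι] (χ : ι → R → R)
    (hmul : ∀ i c d, χ i (c * d) = χ i c * χ i d) (hone : ∀ i, χ i 1 = 1)
    (S : Finset ι) (hinj : ∀ i ∈ S, ∀ j ∈ S, i ≠ j → ∃ c, χ i c ≠ χ j c)
    (w : ι → V) (h : ∀ d : R, ∑ i ∈ S, χ i d • w i ∈ U) : ∀ i ∈ S, w i ∈ U := by
  induction S using Finset.induction_on generalizing w with
  | empty => intro i hi; simp at hi
  | insert j S' hj ih =>
    have hinj' : ∀ i ∈ S', ∀ k ∈ S', i ≠ k → ∃ c, χ i c ≠ χ k c := fun i hi k hk hik =>
      hinj i (Finset.mem_insert_of_mem hi) k (Finset.mem_insert_of_mem hk) hik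
    have key : ∀ c d : R, ∑ i ∈ S', χ i d • ((χ i c - χ j c) • w i) ∈ U := by
      intro c d
      have h1 := h (c * d)
      have h2 := U.smul_mem (χ j c) (h d)
      have h3 := U.sub_mem h1 h2
      rw [Finset.sum_insert hj, Finset.sum_insert hj] at h3
      have e : χ j (c * d) • w j + ∑ i ∈ S', χ i (c * d) • w i -
          χ j c • (χ j d • w j + ∑ i ∈ S', χ i d • w i) =
          ∑ i ∈ S', χ i d • ((χ i c - χ j c) • w i) := by
        rw [smul_add, Finset.smul_sum, hmul j c d, mul_smul]
        rw [add_sub_add_left_eq_sub, ← Finset.sum_sub_distrib]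
        apply Finset.sum_congr rfl
        intro i _
        rw [hmul i c d, smul_smul, smul_smul, ← sub_smul]
        congr 1
        rw [hcomm (χ i d) (χ i c - χ j c), sub_mul]
      rw [e] at h3
      exact h3
    have hS' : ∀ i ∈ S', w i ∈ U := by
      intro i hi
      have hij : i ≠ j := by rintro rfl; exact hj hi
      obtain ⟨c, hc⟩ := hinj i (Finset.mem_insert_of_mem hi) j (Finset.mem_insert_self j S') hij
      have h4 := ih hinj' (fun i => (χ i c - χ j c) • w i) (key c) i hi
      rcases hU _ _ h4 with h5 | h5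
      · exact absurd (sub_eq_zero.1 h5) hc
      · exact h5
    intro i hi
    rcases Finset.mem_insert.1 hi with rfl | hi'
    · have h1 := h 1
      rw [Finset.sum_insert hj] at h1
      simp only [hone, one_smul] at h1
      have h2 : ∑ i ∈ S', w i ∈ U := U.sum_mem hS'
      have h3 := U.sub_mem h1 h2
      rwa [add_sub_cancel_right] at h3
    · exact hS' i hi'

end Cfsg.Agent.Lib.Helper52.SemiLin
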