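import Mathlib
import Cfsg.Agent.Lib.Helper52.SemiLin

/-!
Core of the "degree `2 ^ p`" argument: a finite abelian group `V` with a set `M` of endomorphisms
transitive on the nonzero elements, a non-scalar element `z` commuting with `M`, and a unit `u`
of prime order `p` normalising `M` whose fixed points are `0` and `v₀` has `2 ^ p` elements.
-/

set_option autoImplicit false

namespace Cfsg.Agent.Lib.Helper52.NearCore

open Cfsg.Agent.Lib.Helper52

variable {V : Type*} [AddCommGroup V]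

theorem inj_of_mem (M : Set (AddMonoid.End V))
    (hMtr : ∀ v w : V, v ≠ 0 → w ≠ 0 → ∃ k ∈ M, k v = w)
    {d : AddMonoid.End V} (hd : d ∈ Subring.centralizer M) {v : V} (hdv : d v = 0) :
    d = 0 ∨ v = 0 := by
  by_cases hv : v = 0
  · exact Or.inr hv
  · left
    ext w
    by_cases hw : w = 0
    · rw [hw, map_zero, map_zero]
    · obtain ⟨k, hk, hkv⟩ := hMtr v w hv hw
      have h1 : k * d = d * k := (Subring.mem_centralizer_iff.1 hd) k hk
      have h2 : d w = (d * k) v := by rw [← hkv]; rfl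
      rw [h2, ← h1]
      show k (d v) = 0
      rw [hdv, map_zero]

theorem ev_inj (M : Set (AddMonoid.End V))
    (hMtr : ∀ v w : V, v ≠ 0 → w ≠ 0 → ∃ k ∈ M, k v = w) {v₀ : V} (hv₀ : v₀ ≠ 0)
    {d d' : AddMonoid.End V} (hd : d ∈ Subring.centralizer M) (hd' : d' ∈ Subring.centralizer M)
    (h : d v₀ = d' v₀) : d = d' := by
  have h1 : (d - d') v₀ = 0 := by
    show d v₀ - d' v₀ = 0
    rw [h, sub_self]
  rcases inj_of_mem M hMtr ((Subring.centralizer M).sub_mem hd hd') h1 with h2 | h2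
  · exact sub_eq_zero.1 h2
  · exact absurd h2 hv₀

theorem card_two_pow [Finite V] (M : Set (AddMonoid.End V))
    (hMtr : ∀ v w : V, v ≠ 0 → w ≠ 0 → ∃ k ∈ M, k v = w)
    (z : AddMonoid.End V) (hz : ∀ k ∈ M, k * z = z * k) (hz1 : z ≠ 1) (hz0 : z ≠ 0)
    (u : (AddMonoid.End V)ˣ)
    (hnorm : ∀ k ∈ M, (↑u⁻¹ : AddMonoid.End V) * k * u ∈ M)
    (hnorm' : ∀ k ∈ M, (u : AddMonoid.End V) * k * ↑u⁻¹ ∈ M)
    (v₀ : V) (hv₀ : v₀ ≠ 0) (huv : (u : AddMonoid.End V) v₀ = v₀)
    (hfix : ∀ v : V, (u : AddMonoid.End V) v = v → v = 0 ∨ v = v₀)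
    (p : ℕ) (hp : p.Prime) (hup : u ^ p = 1) :
    Nat.card V = 2 ^ p := by
  classical
  set R : Subring (AddMonoid.End V) := Subring.centralizer M with hR
  have hconj : ∀ d ∈ R, (u : AddMonoid.End V) * d * ↑u⁻¹ ∈ R := by
    intro d hd
    rw [hR, Subring.mem_centralizer_iff]
    intro k hk
    have h1 : (↑u⁻¹ * k * ↑u) * d = d * (↑u⁻¹ * k * ↑u) :=
      (Subring.mem_centralizer_iff.1 hd) _ (hnorm k hk)
    calc k * (↑u * d * ↑u⁻¹) = ↑u * ((↑u⁻¹ * k * ↑u) * d) * ↑u⁻¹ := by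
          simp only [mul_assoc, Units.mul_inv_cancel_left]
      _ = ↑u * (d * (↑u⁻¹ * k * ↑u)) * ↑u⁻¹ := by rw [h1]
      _ = ↑u * d * ↑u⁻¹ * k := by
          simp only [mul_assoc, Units.mul_inv, mul_one]
  have hconj' : ∀ d ∈ R, (↑u⁻¹ : AddMonoid.End V) * d * ↑u ∈ R := by
    intro d hd
    rw [hR, Subring.mem_centralizer_iff]
    intro k hk
    have h1 : (↑u * k * ↑u⁻¹) * d = d * (↑u * k * ↑u⁻¹) :=
      (Subring.mem_centralizer_iff.1 hd) _ (hnorm' k hk)
    calc k * (↑u⁻¹ * d * ↑u) = ↑u⁻¹ * ((↑u * k * ↑u⁻¹) * d) * ↑u := by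
          simp only [mul_assoc, Units.inv_mul_cancel_left]
      _ = ↑u⁻¹ * (d * (↑u * k * ↑u⁻¹)) * ↑u := by rw [h1]
      _ = ↑u⁻¹ * d * ↑u * k := by
          simp only [mul_assoc, Units.inv_mul, mul_one]
  -- the automorphism
  let σ : ↥R ≃+* ↥R :=
    { toFun := fun d => ⟨↑u * d.1 * ↑u⁻¹, hconj d.1 d.2⟩
      invFun := fun d => ⟨↑u⁻¹ * d.1 * ↑u, hconj' d.1 d.2⟩
      left_inv := by
        intro d
        apply Subtype.ext
        show (↑u⁻¹ : AddMonoid.End V) * (↑u * d.1 * ↑u⁻¹) * ↑u = d.1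
        simp only [mul_assoc, Units.inv_mul, mul_one, Units.inv_mul_cancel_left]
      right_inv := by
        intro d
        apply Subtype.ext
        show (↑u : AddMonoid.End V) * (↑u⁻¹ * d.1 * ↑u) * ↑u⁻¹ = d.1
        simp only [mul_assoc, Units.mul_inv, mul_one, Units.mul_inv_cancel_left]
      map_mul' := by
        intro a b
        apply Subtype.ext
        show (↑u : AddMonoid.End V) * (a.1 * b.1) * ↑u⁻¹ = (↑u * a.1 * ↑u⁻¹) * (↑u * b.1 * ↑u⁻¹)
        simp only [mul_assoc, Units.inv_mul_cancel_left]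
      map_add' := by
        intro a b
        apply Subtype.ext
        show (↑u : AddMonoid.End V) * (a.1 + b.1) * ↑u⁻¹ = (↑u * a.1 * ↑u⁻¹) + (↑u * b.1 * ↑u⁻¹)
        rw [mul_add, add_mul] }
  have hσ : ∀ d : ↥R, ((σ d : ↥R) : AddMonoid.End V) = ↑u * d.1 * ↑u⁻¹ := fun d => rfl
  have hσpow : ∀ (i : ℕ) (d : ↥R), (((σ ^ i) d : ↥R) : AddMonoid.End V) =
      ↑(u ^ i) * d.1 * ↑(u ^ i)⁻¹ := by
    intro i
    induction i with
    | zero => intro d; simp
    | succ i ih =>
      intro d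
      rw [pow_succ', RingAut.mul_apply, hσ, ih, pow_succ', mul_inv_rev, Units.val_mul, Units.val_mul]
      simp only [mul_assoc]
  have hinjR : ∀ (d : ↥R) (v : V), d.1 v = 0 → d = 0 ∨ v = 0 := by
    intro d v h
    rcases inj_of_mem M hMtr d.2 h with h1 | h1
    · left; exact Subtype.ext h1
    · right; exact h1
  have hevR : ∀ d d' : ↥R, d.1 v₀ = d'.1 v₀ → d = d' := fun d d' h =>
    Subtype.ext (ev_inj M hMtr hv₀ d.2 d'.2 h)
  have hfin : Finite ↥R := Finite.of_injective (fun d : ↥R => d.1 v₀) (fun d d' h => hevR d d' h)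
  have hnt : Nontrivial ↥R := by
    refine ⟨⟨0, 1, ?_⟩⟩
    intro h
    have h1 : (0 : ↥R) = 0 ∨ v₀ = 0 := hinjR 0 v₀ rfl
    have h2 : ((1 : ↥R) : AddMonoid.End V) v₀ = v₀ := rfl
    rw [← h] at h2
    exact hv₀ h2.symm
  have hnzd : NoZeroDivisors ↥R := by
    refine ⟨?_⟩
    intro a b hab
    by_contra hcon
    push Not at hcon
    have h1 : a.1 (b.1 v₀) = 0 := by
      have : ((a * b : ↥R) : AddMonoid.End V) v₀ = 0 := by rw [hab]; rfl
      exact this
    rcases hinjR a _ h1 with h2 | h2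
    · exact hcon.1 h2
    · rcases hinjR b _ h2 with h3 | h3
      · exact hcon.2 h3
      · exact hv₀ h3
  have hdom : IsDomain ↥R := NoZeroDivisors.to_isDomain _
  have hfixR : ∀ d : ↥R, σ d = d → d = 0 ∨ d = 1 := by
    intro d hd
    have h1 : (↑u : AddMonoid.End V) * d.1 * ↑u⁻¹ = d.1 := by rw [← hσ, hd]
    have h2 : (↑u : AddMonoid.End V) * d.1 = d.1 * ↑u := by
      calc (↑u : AddMonoid.End V) * d.1 = (↑u * d.1 * ↑u⁻¹) * ↑u := by
            simp only [mul_assoc, Units.inv_mul, mul_one]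
        _ = d.1 * ↑u := by rw [h1]
    have h3 : (u : AddMonoid.End V) (d.1 v₀) = d.1 v₀ := by
      have : ((↑u : AddMonoid.End V) * d.1) v₀ = (d.1 * ↑u) v₀ := by rw [h2]
      calc (u : AddMonoid.End V) (d.1 v₀) = (d.1 * ↑u) v₀ := this
        _ = d.1 v₀ := by show d.1 ((u : AddMonoid.End V) v₀) = d.1 v₀; rw [huv]
    rcases hfix _ h3 with h4 | h4
    · rcases hinjR d v₀ h4 with h5 | h5
      · exact Or.inl h5
      · exact absurd h5 hv₀
    · right
      exact hevR d 1 h4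
  have hzR : z ∈ R := by
    rw [hR, Subring.mem_centralizer_iff]; exact hz
  have hσ1 : σ ≠ 1 := by
    intro h
    have h1 : σ ⟨z, hzR⟩ = ⟨z, hzR⟩ := by rw [h]; rfl
    rcases hfixR _ h1 with h2 | h2
    · exact hz0 (congrArg Subtype.val h2)
    · exact hz1 (congrArg Subtype.val h2)
  have hσp : σ ^ p = 1 := by
    ext d v
    have := hσpow p d
    rw [hup] at this
    rw [this]
    simp
  have hcardR : Nat.card ↥R = 2 ^ p := SemiLin.card_of_aut ↥R σ p hp hσp hσ1 hfixR
  have hord : orderOf σ = p := by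
    have : Fact p.Prime := ⟨hp⟩
    exact orderOf_eq_prime hσp hσ1
  have hcomm : ∀ a b : ↥R, a * b = b * a := (Finite.isDomain_to_isField ↥R).mul_comm
  -- descent
  have hsurj : ∀ v : V, ∃ d : ↥R, d.1 v₀ = v := by
    intro v
    let U : Submodule ↥R V := Submodule.span ↥R {v₀}
    have hv₀U : v₀ ∈ U := Submodule.subset_span rfl
    have hU : ∀ (r : ↥R) (x : V), r • x ∈ U → r = 0 ∨ x ∈ U := by
      intro r x hrx
      by_cases hr : r = 0
      · exact Or.inl hr
      · right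
        obtain ⟨r', hr'⟩ := (Finite.isDomain_to_isField ↥R).mul_inv_cancel hr
        have h1 : r' • (r • x) ∈ U := U.smul_mem r' hrx
        rw [smul_smul, hcomm r' r, hr', one_smul] at h1
        exact h1
    have hχ : ∀ i ∈ Finset.range p, ∀ j ∈ Finset.range p, i ≠ j →
        ∃ c : ↥R, (σ ^ i) c ≠ (σ ^ j) c := by
      intro i hi j hj hij
      by_contra hcon
      push Not at hcon
      apply hij
      have h1 : σ ^ i = σ ^ j := RingEquiv.ext hcon
      rw [pow_eq_pow_iff_modEq, hord] at h1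
      exact h1.eq_of_lt_of_lt (Finset.mem_range.1 hi) (Finset.mem_range.1 hj)
    have hsum : ∀ d : ↥R, ∑ i ∈ Finset.range p, ((σ ^ i) d) • ((↑(u ^ i) : AddMonoid.End V) v) ∈ U := by
      intro d
      have e1 : ∑ i ∈ Finset.range p, ((σ ^ i) d) • ((↑(u ^ i) : AddMonoid.End V) v) =
          ∑ i ∈ Finset.range p, (↑(u ^ i) : AddMonoid.End V) (d.1 v) := by
        apply Finset.sum_congr rfl
        intro i _
        show (((σ ^ i) d : ↥R) : AddMonoid.End V) ((↑(u ^ i) : AddMonoid.End V) v) = _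
        rw [hσpow]
        show (↑(u ^ i) : AddMonoid.End V) (d.1 ((↑(u ^ i)⁻¹ : AddMonoid.End V)
          ((↑(u ^ i) : AddMonoid.End V) v))) = _
        have : (↑(u ^ i)⁻¹ : AddMonoid.End V) ((↑(u ^ i) : AddMonoid.End V) v) = v := by
          show ((↑(u ^ i)⁻¹ : AddMonoid.End V) * ↑(u ^ i)) v = v
          rw [Units.inv_mul]; rfl
        rw [this]
      rw [e1]
      set x := d.1 v with hx
      have e2 : (u : AddMonoid.End V) (∑ i ∈ Finset.range p, (↑(u ^ i) : AddMonoid.End V) x) =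
          ∑ i ∈ Finset.range p, (↑(u ^ i) : AddMonoid.End V) x := by
        rw [map_sum]
        have e3 : ∀ i : ℕ, (u : AddMonoid.End V) ((↑(u ^ i) : AddMonoid.End V) x) =
            (↑(u ^ (i + 1)) : AddMonoid.End V) x := by
          intro i
          rw [pow_succ', Units.val_mul]; rfl
        simp only [e3]
        have e4 := Finset.sum_range_succ' (fun i => (↑(u ^ i) : AddMonoid.End V) x) p
        have e5 := Finset.sum_range_succ (fun i => (↑(u ^ i) : AddMonoid.End V) x) p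
        rw [e5] at e4
        simp only [hup, pow_zero] at e4
        exact (add_right_cancel e4).symm
      rcases hfix _ e2 with h1 | h1
      · rw [h1]; exact U.zero_mem
      · rw [h1]; exact hv₀U
    have hmain := SemiLin.dedekind_sub hcomm U hU (fun (i : ℕ) (c : ↥R) => (σ ^ i) c)
      (fun i c d => map_mul _ c d) (fun i => map_one _) (Finset.range p) hχ
      (fun i => (↑(u ^ i) : AddMonoid.End V) v) hsum 0 (Finset.mem_range.2 hp.pos)
    have hv : v ∈ U := by
      have : (↑(u ^ 0) : AddMonoid.End V) v = v := by rw [pow_zero]; rfl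
      rw [← this]; exact hmain
    obtain ⟨a, ha⟩ := Submodule.mem_span_singleton.1 hv
    exact ⟨a, ha⟩
  have hbij : Function.Bijective (fun d : ↥R => d.1 v₀) :=
    ⟨fun d d' h => hevR d d' h, hsurj⟩
  rw [← Nat.card_congr (Equiv.ofBijective _ hbij), hcardR]

end Cfsg.Agent.Lib.Helper52.NearCore
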