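import Mathlib
import Cfsg.Agent.Lib.Helper52.NearCore

/-!
Multiplicative form of `NearCore.card_two_pow`: a finite abelian group `A` acted on by a group `G`
such that a subset `K` of `G` is transitive on the nonidentity elements of `A`, some `z`
centralising `K` acts nontrivially, and `h` of prime order `p` normalises `K` and fixes exactly
`1` and `x₀`, has order `2 ^ p`.
-/

set_option autoImplicit false

namespace Cfsg.Agent.Lib.Helper52.ConjCard

open Cfsg.Agent.Lib.Helper52

theorem card_of_act {G A : Type*} [Group G] [CommGroup A] [Finite A] (φ : G →* MulAut A)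
    (K : Set G) (hKtr : ∀ x y : A, x ≠ 1 → y ≠ 1 → ∃ k ∈ K, φ k x = y)
    (z : G) (hzK : ∀ k ∈ K, k * z = z * k) (hz1 : φ z ≠ 1)
    (h : G) (hnorm : ∀ k ∈ K, h * k * h⁻¹ ∈ K) (hnorm' : ∀ k ∈ K, h⁻¹ * k * h ∈ K)
    (x₀ : A) (hx₀ : x₀ ≠ 1) (hhx : φ h x₀ = x₀) (hfix : ∀ x : A, φ h x = x → x = 1 ∨ x = x₀)
    (p : ℕ) (hp : p.Prime) (hhp : h ^ p = 1) : Nat.card A = 2 ^ p := by
  classical
  let cj : G →* AddMonoid.End (Additive A) :=
    { toFun := fun g => MonoidHom.toAdditive (φ g).toMonoidHom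
      map_one' := by
        ext v
        show Additive.ofMul ((φ 1) (Additive.toMul v)) = v
        rw [map_one]; rfl
      map_mul' := by
        intro g g'
        ext v
        show Additive.ofMul ((φ (g * g')) (Additive.toMul v)) =
          Additive.ofMul ((φ g) ((φ g') (Additive.toMul v)))
        rw [map_mul]; rfl }
  have hcj : ∀ (g : G) (x : A), cj g (Additive.ofMul x) = Additive.ofMul (φ g x) := fun g x => rfl
  let u : (AddMonoid.End (Additive A))ˣ := Units.map cj (toUnits h)
  have hu : (u : AddMonoid.End (Additive A)) = cj h := rfl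
  have hui : (↑u⁻¹ : AddMonoid.End (Additive A)) = cj h⁻¹ := by
    show (↑(Units.map cj (toUnits h))⁻¹ : AddMonoid.End (Additive A)) = cj h⁻¹
    rw [← map_inv, ← map_inv]; rfl
  have hcard : Nat.card (Additive A) = Nat.card A := Nat.card_congr Additive.toMul
  rw [← hcard]
  refine NearCore.card_two_pow (cj '' K) ?_ (cj z) ?_ ?_ ?_ u ?_ ?_ (Additive.ofMul x₀) ?_ ?_ ?_
    p hp ?_
  · intro v w hv hw
    have hv' : Additive.toMul v ≠ 1 := fun h' => hv (by rw [← ofMul_toMul v, h']; rfl)
    have hw' : Additive.toMul w ≠ 1 := fun h' => hw (by rw [← ofMul_toMul w, h']; rfl)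
    obtain ⟨k, hk, hkx⟩ := hKtr _ _ hv' hw'
    refine ⟨cj k, Set.mem_image_of_mem _ hk, ?_⟩
    show Additive.ofMul (φ k (Additive.toMul v)) = w
    rw [hkx]; rfl
  · rintro m ⟨k, hk, rfl⟩
    rw [← map_mul, ← map_mul, hzK k hk]
  · intro h'
    apply hz1
    ext x
    have h1 : cj z (Additive.ofMul x) = Additive.ofMul x := by rw [h']; rfl
    exact h1
  · intro h'
    have h1 : cj z (Additive.ofMul x₀) = 0 := by rw [h']; rfl
    have h2 : φ z x₀ = 1 := h1
    have h3 : φ z x₀ = φ z 1 := by rw [h2, map_one]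
    exact hx₀ ((φ z).injective h3)
  · rintro m ⟨k, hk, rfl⟩
    rw [hu, hui, ← map_mul, ← map_mul]
    exact Set.mem_image_of_mem _ (hnorm' k hk)
  · rintro m ⟨k, hk, rfl⟩
    rw [hu, hui, ← map_mul, ← map_mul]
    exact Set.mem_image_of_mem _ (hnorm k hk)
  · intro h'
    exact hx₀ h'
  · rw [hu, hcj, hhx]
  · intro v hv
    rw [hu] at hv
    have h1 : φ h (Additive.toMul v) = Additive.toMul v := hv
    rcases hfix _ h1 with h2 | h2
    · left
      rw [← ofMul_toMul v, h2]; rfl
    · right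
      rw [← ofMul_toMul v, h2]
  · show Units.map cj (toUnits h) ^ p = 1
    rw [← map_pow, ← map_pow, hhp, map_one, map_one]

end Cfsg.Agent.Lib.Helper52.ConjCard
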