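import Cfsg.Agent.Lib.Helper92.D11Stmt

/-!
# S0679 piece NORM5 (helper52)

The normalizer of `⟨z⟩`, `z` of order 5 and not a 5-cycle on 11 points, has order dividing 200.
-/

set_option autoImplicit false

namespace Cfsg.Agent.Lib.Helper52.D11NORM5

open Equiv

universe u

theorem cycleType_eq {α : Type u} [Fintype α] [DecidableEq α] (hα : Fintype.card α = 11)
    (z : Perm α) (hz : orderOf z = 5) (hc : ¬ z.IsCycle) : z.cycleType = {5, 5} := by
  have hp : Nat.Prime (orderOf z) := by rw [hz]; norm_num
  obtain ⟨k, hk⟩ := Equiv.Perm.cycleType_prime_order (σ := z) hp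
  rw [hz] at hk
  have hsum := Equiv.Perm.sum_cycleType z
  have hle : z.support.card ≤ 11 := hα ▸ Finset.card_le_univ _
  rw [hk, Multiset.sum_replicate] at hsum
  have hk2 : k ≤ 1 := by
    simp only [smul_eq_mul] at hsum
    omega
  interval_cases k
  · exfalso; apply hc
    rw [← Equiv.Perm.card_cycleType_eq_one, hk]; simp
  · rw [hk]; rfl

theorem card_cent {α : Type u} [Fintype α] [DecidableEq α] (hα : Fintype.card α = 11)
    (z : Perm α) (hz : orderOf z = 5) (hc : ¬ z.IsCycle) :
    Nat.card (Subgroup.centralizer {z}) = 50 := by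
  rw [Equiv.Perm.nat_card_centralizer, cycleType_eq hα z hz hc, hα]
  decide

theorem main : Cfsg.Agent.Lib.Helper92.D11Stmt.Norm5.{u} := by
  intro α _ _ hα G z hz hc
  have hcent := card_cent hα (z : Perm α) (by rw [Subgroup.orderOf_coe]; exact hz) hc
  set H : Subgroup G := Subgroup.zpowers z with hH
  have hHcard : Nat.card H = 5 := by rw [hH, Nat.card_zpowers, hz]
  have hcyc : IsCyclic H := by rw [hH]; infer_instance
  have hker := Subgroup.normalizerMonoidHom_ker (H := H)
  have h1 : Nat.card H.normalizerMonoidHom.range ∣ 4 := by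
    have h1 := Subgroup.card_subgroup_dvd_card H.normalizerMonoidHom.range
    rw [IsCyclic.card_mulAut, hHcard, Nat.totient_prime (by norm_num)] at h1
    exact h1
  have h2 : Nat.card H.normalizerMonoidHom.ker ∣ 50 := by
    rw [hker, ← hcent]
    set K := (Subgroup.centralizer (H : Set G)).subgroupOf (Subgroup.normalizer (H : Set G))
      with hK
    let φ : K →* Perm α :=
      G.subtype.comp ((Subgroup.normalizer (H : Set G)).subtype.comp K.subtype)
    have hinj : Function.Injective φ := by
      intro a b hab
      apply Subtype.ext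
      apply Subtype.ext
      apply Subtype.ext
      exact hab
    have hrange : φ.range ≤ Subgroup.centralizer {(z : Perm α)} := by
      rintro _ ⟨x, rfl⟩
      rw [Subgroup.mem_centralizer_iff]
      intro y hy
      rw [Set.mem_singleton_iff] at hy
      subst hy
      have hx : ((x : Subgroup.normalizer (H : Set G)) : G) ∈ Subgroup.centralizer (H : Set G) :=
        x.2
      have hzH : z ∈ (H : Set G) := Subgroup.mem_zpowers z
      have := hx z hzH
      exact congrArg Subtype.val this
    have hcard : Nat.card K = Nat.card φ.range :=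
      Nat.card_congr (MonoidHom.ofInjective hinj).toEquiv
    rw [hcard]
    exact Subgroup.card_dvd_of_le hrange
  rw [← Subgroup.card_mul_index H.normalizerMonoidHom.ker, Subgroup.index_ker]
  exact Nat.mul_dvd_mul h2 h1

end Cfsg.Agent.Lib.Helper52.D11NORM5
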