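import Cfsg.Agent.Lib.Helper92.D11Stmt

/-!
# S0679 piece ORD (helper52)

Orders of a 2-transitive group of even permutations of degree 11 without 5-cycles and 7-cycles
in which the normalizer of a subgroup of order 11 has order 55: 660, 7920 or 95040.
-/

set_option autoImplicit false

namespace Cfsg.Agent.Lib.Helper52.D11ORD

open Equiv MulAction

universe u

theorem cycle_of_prime {α : Type u} [Fintype α] [DecidableEq α] (t : Perm α) (p : ℕ)
    (hp : p.Prime) (ht : orderOf t = p) (hs : t.support.card < 2 * p) :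
    t.IsCycle ∧ t.support.card = p := by
  have hp' : Nat.Prime (orderOf t) := ht ▸ hp
  obtain ⟨k, hk⟩ := Equiv.Perm.cycleType_prime_order (σ := t) hp'
  rw [ht] at hk
  have hsum := Equiv.Perm.sum_cycleType t
  rw [hk, Multiset.sum_replicate, smul_eq_mul] at hsum
  have hk0 : k = 0 := by
    by_contra hk0
    have h2 : 2 ≤ k + 1 := by omega
    have h3 : 2 * p ≤ (k + 1) * p := Nat.mul_le_mul_right p h2
    omega
  subst hk0
  refine ⟨?_, ?_⟩
  · rw [← Equiv.Perm.card_cycleType_eq_one, hk]; simp
  · rw [← hsum]; simp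

theorem arith (m : ℕ) (hm : m ∣ 5184) (hmod : 110 * m % 121 = 55) :
    m = 6 ∨ m = 72 ∨ m = 864 := by
  have h5184 : (5184 : ℕ) = 2 ^ 6 * 3 ^ 4 := by norm_num
  rw [h5184] at hm
  obtain ⟨k1, k2, hk1, hk2, rfl⟩ := (Nat.dvd_mul).1 hm
  obtain ⟨a, ha, rfl⟩ := (Nat.dvd_prime_pow Nat.prime_two).1 hk1
  obtain ⟨b, hb, rfl⟩ := (Nat.dvd_prime_pow Nat.prime_three).1 hk2
  interval_cases a <;> interval_cases b <;> simp at hmod ⊢

theorem main : Cfsg.Agent.Lib.Helper92.D11Stmt.Ord.{u} := by
  intro α _ _ hα G h2 hsign hcyc Q hQ hN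
  have hp11 : Fact (Nat.Prime 11) := ⟨by norm_num⟩
  have hnt : Nontrivial α := by
    rw [← Fintype.one_lt_card_iff_nontrivial, hα]; norm_num
  -- |G| = 110 m
  have hemb : Nat.card (Fin 2 ↪ α) = 110 := by
    rw [Nat.card_eq_fintype_card, Fintype.card_embedding_eq, hα, Fintype.card_fin]; rfl
  obtain ⟨x⟩ : Nonempty (Fin 2 ↪ α) := (Nat.card_pos_iff.mp (by omega)).1
  have hidx := @index_stabilizer_of_transitive G (Fin 2 ↪ α) _ _ x h2
  rw [hemb] at hidx
  set H := stabilizer G x with hH
  have hcard := Subgroup.card_mul_index H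
  rw [hidx] at hcard
  set m := Nat.card H with hm
  -- |G| divides 11!/2
  have hle : G ≤ alternatingGroup α := by
    intro g hg
    rw [Equiv.Perm.mem_alternatingGroup]
    exact hsign g hg
  have hdvd : Nat.card G ∣ 19958400 := by
    have h1 := Subgroup.card_dvd_of_le hle
    have h2 : Nat.card (alternatingGroup α) = 19958400 := by
      rw [nat_card_alternatingGroup, Nat.card_eq_fintype_card, hα]
      decide
    rwa [h2] at h1
  have hm1 : m ∣ 181440 := by
    rw [← hcard] at hdvd
    have h3 : (19958400 : ℕ) = 181440 * 110 := by norm_num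
    rw [h3] at hdvd
    exact Nat.dvd_of_mul_dvd_mul_right (by norm_num) hdvd
  -- no element of order 5 in the stabilizer
  have h5 : ¬ 5 ∣ m := by
    intro h5
    have : Fact (Nat.Prime 5) := ⟨by norm_num⟩
    obtain ⟨g, hg⟩ := exists_prime_orderOf_dvd_card' (G := H) 5 h5
    set t : Perm α := ((g : G) : Perm α) with ht
    have hto : orderOf t = 5 := by
      rw [ht, Subgroup.orderOf_coe, Subgroup.orderOf_coe, hg]
    have hgx : (g : G) • x = x := g.2
    have hfix : ∀ i, t (x i) = x i := by
      intro i
      have := congrArg (fun e : Fin 2 ↪ α => e i) hgx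
      exact this
    have hdisj : Disjoint t.support ({x 0, x 1} : Finset α) := by
      rw [Finset.disjoint_left]
      intro a ha hat
      rw [Finset.mem_insert, Finset.mem_singleton] at hat
      rcases hat with h | h
      · exact (Perm.mem_support.mp ha) (h ▸ hfix 0)
      · exact (Perm.mem_support.mp ha) (h ▸ hfix 1)
    have hne : x 0 ≠ x 1 := by
      intro h
      have := x.injective h
      exact absurd this (by decide)
    have hc2 : ({x 0, x 1} : Finset α).card = 2 := Finset.card_pair hne
    have hun := Finset.card_union_of_disjoint hdisj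
    have hleu := Finset.card_le_univ (t.support ∪ {x 0, x 1})
    rw [hα] at hleu
    obtain ⟨hc, hs⟩ := cycle_of_prime t 5 (by norm_num) hto (by omega)
    exact (hcyc t (g : G).2 hc).1 hs
  -- no element of order 7
  have h7 : ¬ 7 ∣ m := by
    intro h7
    have : Fact (Nat.Prime 7) := ⟨by norm_num⟩
    have h7G : 7 ∣ Nat.card G := by
      rw [← hcard]; exact Dvd.dvd.mul_right h7 _
    obtain ⟨g, hg⟩ := exists_prime_orderOf_dvd_card' (G := G) 7 h7G
    set t : Perm α := (g : Perm α) with ht
    have hto : orderOf t = 7 := by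
      rw [ht, Subgroup.orderOf_coe, hg]
    have hleu := Finset.card_le_univ t.support
    rw [hα] at hleu
    obtain ⟨hc, hs⟩ := cycle_of_prime t 7 (by norm_num) hto (by omega)
    exact (hcyc t g.2 hc).2 hs
  have hm2 : m ∣ 5184 := by
    have h3 : (181440 : ℕ) = 5184 * 35 := by norm_num
    rw [h3] at hm1
    have hcop : Nat.Coprime m 35 := by
      have h35 : (35 : ℕ) = 5 * 7 := by norm_num
      rw [h35]
      apply Nat.Coprime.mul_right
      · exact ((Nat.Prime.coprime_iff_not_dvd (by norm_num)).2 h5).symm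
      · exact ((Nat.Prime.coprime_iff_not_dvd (by norm_num)).2 h7).symm
    exact hcop.dvd_of_dvd_mul_right hm1
  -- Sylow congruence
  have hmod := Sylow.card_normalizer_modEq_card (G := G) (p := 11) (n := 1) (H := Q)
    (by rw [hQ, pow_one])
  rw [hN, ← hcard] at hmod
  have hmod' : 110 * m % 121 = 55 := by
    have := hmod.symm
    unfold Nat.ModEq at this
    rw [mul_comm] at this
    simpa using this
  rcases arith m hm2 hmod' with h | h | h
  · left; rw [← hcard, h]
  · right; left; rw [← hcard, h]
  · right; right; rw [← hcard, h]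

end Cfsg.Agent.Lib.Helper52.D11ORD
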