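import Mathlib
import Cfsg.Agent.Lib.Helper80.S4705Stmt
import Cfsg.Agent.Lib.CT.Ops

/-!
# S4705 piece ALT: the exterior square of a character is a character

The exterior square is realised on the skew-symmetric matrices, `g · X = A(g) X A(g)ᵀ`.
-/

set_option autoImplicit false

namespace Cfsg.Agent.Lib.Helper52.FTALT

open Cfsg Matrix

universe u

section mat

variable {n : ℕ}

/-- `X ↦ A X Aᵀ` -/
noncomputable def conjT (A : Matrix (Fin n) (Fin n) ℂ) :
    Matrix (Fin n) (Fin n) ℂ →ₗ[ℂ] Matrix (Fin n) (Fin n) ℂ where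
  toFun X := A * X * Aᵀ
  map_add' X Y := by rw [Matrix.mul_add, Matrix.add_mul]
  map_smul' c X := by
    simp only [RingHom.id_apply]
    rw [Matrix.mul_smul, Matrix.smul_mul]

theorem conjT_apply (A X : Matrix (Fin n) (Fin n) ℂ) : conjT A X = A * X * Aᵀ := rfl

/-- the transpose as a linear map -/
noncomputable def tr' : Matrix (Fin n) (Fin n) ℂ →ₗ[ℂ] Matrix (Fin n) (Fin n) ℂ where
  toFun X := Xᵀ
  map_add' X Y := Matrix.transpose_add X Y
  map_smul' c X := Matrix.transpose_smul c X

theorem tr'_apply (X : Matrix (Fin n) (Fin n) ℂ) : tr' X = Xᵀ := rfl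

/-- the skew-symmetric matrices -/
def skew (n : ℕ) : Submodule ℂ (Matrix (Fin n) (Fin n) ℂ) where
  carrier := {X | Xᵀ = -X}
  add_mem' := by
    intro X Y hX hY
    simp only [Set.mem_ofPred_eq] at *
    rw [Matrix.transpose_add, hX, hY, neg_add]
  zero_mem' := by simp
  smul_mem' := by
    intro c X hX
    simp only [Set.mem_ofPred_eq] at *
    rw [Matrix.transpose_smul, hX, smul_neg]

theorem mem_skew {X : Matrix (Fin n) (Fin n) ℂ} : X ∈ skew n ↔ Xᵀ = -X := Iff.rfl

/-- the projection onto the skew-symmetric matrices -/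
noncomputable def proj : Matrix (Fin n) (Fin n) ℂ →ₗ[ℂ] Matrix (Fin n) (Fin n) ℂ :=
  (1 / 2 : ℂ) • (LinearMap.id - tr')

theorem proj_apply (X : Matrix (Fin n) (Fin n) ℂ) : proj X = (1 / 2 : ℂ) • (X - Xᵀ) := rfl

theorem proj_of_mem {X : Matrix (Fin n) (Fin n) ℂ} (hX : X ∈ skew n) : proj X = X := by
  rw [proj_apply, mem_skew.mp hX, sub_neg_eq_add, ← two_smul ℂ X, smul_smul]
  norm_num

theorem conjT_mem (A : Matrix (Fin n) (Fin n) ℂ) :
    ∀ X ∈ skew n, conjT A X ∈ skew n := by
  intro X hX
  rw [mem_skew] at hX ⊢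
  rw [conjT_apply, Matrix.transpose_mul, Matrix.transpose_mul, Matrix.transpose_transpose, hX,
    Matrix.neg_mul, Matrix.mul_neg, Matrix.mul_assoc]

theorem proj_mem (X : Matrix (Fin n) (Fin n) ℂ) : proj X ∈ skew n := by
  rw [mem_skew, proj_apply, Matrix.transpose_smul, Matrix.transpose_sub,
    Matrix.transpose_transpose, ← smul_neg, neg_sub]

/-- the coordinate equivalence -/
def eqv (n : ℕ) : Matrix (Fin n) (Fin n) ℂ ≃ₗ[ℂ] (Fin n × Fin n → ℂ) where
  toFun X p := X p.1 p.2
  invFun f := Matrix.of (fun i j => f (i, j))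
  map_add' _ _ := rfl
  map_smul' _ _ := rfl
  left_inv _ := rfl
  right_inv _ := by
    funext p
    rfl

/-- the standard basis -/
noncomputable def bas (n : ℕ) : Module.Basis (Fin n × Fin n) ℂ (Matrix (Fin n) (Fin n) ℂ) :=
  Module.Basis.ofEquivFun (eqv n)

theorem bas_apply (p : Fin n × Fin n) : bas n p = Matrix.single p.1 p.2 (1 : ℂ) := by
  ext a b
  have h : bas n p a b = (Pi.single p (1 : ℂ) : Fin n × Fin n → ℂ) (a, b) := by
    simp [bas, Module.Basis.coe_ofEquivFun]
    rfl
  rw [h, Matrix.single_apply, Pi.single_apply]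
  by_cases hp : (a, b) = p
  · subst hp
    simp
  · rw [if_neg hp, if_neg]
    rintro ⟨rfl, rfl⟩
    exact hp rfl

theorem trace_eq_sum (f : Matrix (Fin n) (Fin n) ℂ →ₗ[ℂ] Matrix (Fin n) (Fin n) ℂ) :
    LinearMap.trace ℂ _ f = ∑ p : Fin n × Fin n, f (Matrix.single p.1 p.2 1) p.1 p.2 := by
  rw [LinearMap.trace_eq_matrix_trace ℂ (bas n) f]
  unfold Matrix.trace
  refine Finset.sum_congr rfl fun p _ => ?_
  rw [Matrix.diag_apply, LinearMap.toMatrix_apply, bas_apply]
  rfl

theorem conj_single_apply (A B : Matrix (Fin n) (Fin n) ℂ) (i j k l : Fin n) :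
    (A * Matrix.single i j (1 : ℂ) * B) k l = A k i * B j l := by
  rw [Matrix.mul_apply, Finset.sum_eq_single j]
  · rw [Matrix.mul_apply, Finset.sum_eq_single i]
    · rw [Matrix.single_apply, if_pos ⟨rfl, rfl⟩, mul_one]
    · intro a _ ha
      rw [Matrix.single_apply, if_neg (fun h => ha h.1.symm), mul_zero]
    · intro h
      exact absurd (Finset.mem_univ i) h
  · intro b _ hb
    have h0 : (A * Matrix.single i j (1 : ℂ)) k b = 0 := by
      rw [Matrix.mul_apply]
      refine Finset.sum_eq_zero fun a _ => ?_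
      rw [Matrix.single_apply, if_neg (fun h => hb h.2.symm), mul_zero]
    rw [h0, zero_mul]
  · intro h
    exact absurd (Finset.mem_univ j) h

theorem trace_conjT (A : Matrix (Fin n) (Fin n) ℂ) :
    LinearMap.trace ℂ _ (conjT A) = Matrix.trace A ^ 2 := by
  rw [trace_eq_sum]
  simp only [conjT_apply, conj_single_apply, Matrix.transpose_apply]
  rw [Fintype.sum_prod_type, sq, Matrix.trace, Finset.sum_mul_sum]
  rfl

theorem trace_conjT_tr (A : Matrix (Fin n) (Fin n) ℂ) :
    LinearMap.trace ℂ _ (conjT A ∘ₗ tr') = Matrix.trace (A * A) := by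
  rw [trace_eq_sum]
  simp only [LinearMap.comp_apply, tr'_apply, conjT_apply, Matrix.transpose_single,
    conj_single_apply, Matrix.transpose_apply]
  rw [Fintype.sum_prod_type, Matrix.trace]
  simp only [Matrix.diag_apply, Matrix.mul_apply]

theorem trace_conjT_proj (A : Matrix (Fin n) (Fin n) ℂ) :
    LinearMap.trace ℂ _ (conjT A ∘ₗ proj) = (Matrix.trace A ^ 2 - Matrix.trace (A * A)) / 2 := by
  have e : conjT A ∘ₗ proj = (1 / 2 : ℂ) • (conjT A - conjT A ∘ₗ tr') := by
    unfold proj
    rw [LinearMap.comp_smul, LinearMap.comp_sub, LinearMap.comp_id]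
  rw [e, map_smul, map_sub, trace_conjT, trace_conjT_tr, smul_eq_mul]
  ring

end mat

section rep

variable {G : Type u} [Group G] {n : ℕ}

/-- the exterior square of a matrix representation -/
noncomputable def altRep (A : G →* Matrix (Fin n) (Fin n) ℂ) : Representation ℂ G (skew n) where
  toFun g := (conjT (A g)).restrict (conjT_mem (A g))
  map_one' := by
    refine LinearMap.ext fun X => Subtype.ext ?_
    rw [LinearMap.coe_restrict_apply, conjT_apply, map_one, Matrix.transpose_one, Matrix.one_mul,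
      Matrix.mul_one]
    rfl
  map_mul' g h := by
    refine LinearMap.ext fun X => Subtype.ext ?_
    rw [LinearMap.coe_restrict_apply, conjT_apply, map_mul, Matrix.transpose_mul]
    change _ = conjT (A g) (conjT (A h) X)
    rw [conjT_apply, conjT_apply]
    simp only [Matrix.mul_assoc]

theorem altRep_character (A : G →* Matrix (Fin n) (Fin n) ℂ) (g : G) :
    (altRep A).character g = (Matrix.trace (A g) ^ 2 - Matrix.trace (A g * A g)) / 2 := by
  rw [← trace_conjT_proj]
  have hf : ∀ X, (conjT (A g) ∘ₗ proj) X ∈ skew n := fun X => conjT_mem (A g) _ (proj_mem X)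
  have hf' : ∀ X ∈ skew n, (conjT (A g) ∘ₗ proj) X ∈ skew n := fun X _ => hf X
  rw [← LinearMap.trace_restrict_eq_of_forall_mem (skew n) (conjT (A g) ∘ₗ proj) hf hf']
  unfold Representation.character
  congr 1
  refine LinearMap.ext fun X => Subtype.ext ?_
  rw [LinearMap.coe_restrict_apply, LinearMap.comp_apply, proj_of_mem X.2]
  rfl

end rep

theorem main : Cfsg.Agent.Lib.Helper80.S4705Stmt.Alt.{u} := by
  intro G _ _ χ hχ
  obtain ⟨n, ρ, rfl⟩ := hχ
  let A : G →* Matrix (Fin n) (Fin n) ℂ :=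
    { toFun := fun g => LinearMap.toMatrix' (ρ g)
      map_one' := by rw [map_one]; exact LinearMap.toMatrix'_one
      map_mul' := fun g h => by rw [map_mul]; exact LinearMap.toMatrix'_mul _ _ }
  have hA : ∀ g, Matrix.trace (A g) = ρ.character g := by
    intro g
    unfold Representation.character
    rw [LinearMap.trace_eq_matrix_trace ℂ (Pi.basisFun ℂ (Fin n)) (ρ g),
      LinearMap.toMatrix_eq_toMatrix']
    rfl
  have key : (altRep A).character = fun g => (ρ.character g ^ 2 - ρ.character (g ^ 2)) / 2 := by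
    funext g
    rw [altRep_character, ← hA g, ← hA (g ^ 2), sq g, map_mul]
  rw [← key]
  exact Cfsg.Agent.Lib.CT.Ops.isCharacter_of_rep (altRep A)

end Cfsg.Agent.Lib.Helper52.FTALT
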