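import Mathlib
import Cfsg.Agent.Lib.Helper80.S4705Stmt

/-!
# S4705 piece ARITH
-/

set_option autoImplicit false

namespace Cfsg.Agent.Lib.Helper52.FTARITH

theorem main : Cfsg.Agent.Lib.Helper80.S4705Stmt.Arith := by
  intro p n hp h5 hodd h2 hpf hdvd hk
  obtain ⟨q, rfl⟩ : ∃ q, p = q + 2 := ⟨p - 2, by omega⟩
  have e2 : q + 2 - 2 = q := by omega
  have e1 : q + 2 - 1 = q + 1 := by omega
  rw [e2] at hodd hdvd
  rw [e1] at h2
  rw [e2, e1]
  obtain ⟨k, hnk, hkp⟩ := hk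
  have hq0 : 0 < q := by omega
  have hk0 : k ≠ 0 := by
    rintro rfl
    simp at hkp
  have hn0 : n ≠ 0 := by
    rw [hnk]
    exact Nat.mul_ne_zero (Nat.mul_ne_zero (by norm_num) (by omega)) hk0
  set s := n.factorization 2 with hs
  have hpodd : Odd (q + 2) := hp.odd_of_ne_two (by omega)
  have hqodd : Odd q := by
    rcases hpodd with ⟨t, ht⟩
    exact ⟨t - 1, by omega⟩
  -- n ∣ 2^s * p * q^2
  have hN : n ∣ 2 ^ s * (q + 2) * q ^ 2 := by
    rw [Nat.dvd_iff_prime_pow_dvd_dvd]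
    intro r j hr hrj
    have hj : j ≤ n.factorization r := (hr.pow_dvd_iff_le_factorization hn0).mp hrj
    by_cases hr2 : r = 2
    · subst hr2
      exact Dvd.dvd.mul_right (Dvd.dvd.mul_right (pow_dvd_pow 2 hj) _) _
    · by_cases hrp : r = q + 2
      · subst hrp
        rw [hpf] at hj
        have h1 : (q + 2) ^ j ∣ q + 2 := by
          interval_cases j <;> simp
        exact Dvd.dvd.mul_right (Dvd.dvd.mul_left h1 _) _
      · exact Dvd.dvd.mul_left ((pow_dvd_pow r hj).trans (hodd r hr hr2 hrp)) _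
  have h2s : 2 ^ s ∣ n := Nat.ordProj_dvd n 2
  have hpn : q + 2 ∣ n := by
    rw [hnk]
    exact Dvd.dvd.mul_right (Dvd.intro_left 2 rfl) k
  have hc1 : Nat.Coprime (2 ^ s) (q + 2) :=
    Nat.Coprime.pow_left s ((Nat.coprime_primes Nat.prime_two hp).mpr (by omega))
  have hc2 : Nat.Coprime (2 ^ s * (q + 2)) q := by
    apply Nat.Coprime.mul_left
    · exact Nat.Coprime.pow_left s (Nat.coprime_two_left.mpr hqodd)
    · rw [Nat.Prime.coprime_iff_not_dvd hp]
      intro h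
      have := Nat.le_of_dvd hq0 h
      omega
  have hM : 2 ^ s * (q + 2) * q ∣ n :=
    Nat.Coprime.mul_dvd_of_dvd_of_dvd hc2 (Nat.Coprime.mul_dvd_of_dvd_of_dvd hc1 h2s hpn) hdvd
  obtain ⟨c, hc⟩ := hM
  have hpos : 0 < 2 ^ s * (q + 2) * q :=
    Nat.mul_pos (Nat.mul_pos (pow_pos two_pos s) (by omega)) hq0
  have hcd : c ∣ q := by
    rw [hc, sq, ← mul_assoc] at hN
    exact (Nat.mul_dvd_mul_iff_left hpos).mp hN
  obtain ⟨m', hm'⟩ := h2
  set a := 2 ^ s with ha
  have ha0 : 0 < a := pow_pos two_pos s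
  -- a * q * c = 2 * k
  have E1 : a * q * c = 2 * k := by
    have h3 : (q + 2) * (a * q * c) = (q + 2) * (2 * k) := by
      calc (q + 2) * (a * q * c) = a * (q + 2) * q * c := by ring
        _ = n := hc.symm
        _ = 2 * (q + 2) * k := hnk
        _ = (q + 2) * (2 * k) := by ring
    exact Nat.eq_of_mul_eq_mul_left (by omega) h3
  have E3 : k = (q + 2) * (k / (q + 2)) + 1 := by
    have := Nat.div_add_mod k (q + 2)
    omega
  set t := k / (q + 2) with ht
  have hc0 : 0 < c := Nat.pos_of_dvd_of_pos hcd hq0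
  have hcle : c ≤ q := Nat.le_of_dvd hq0 hcd
  have hm0 : 0 < m' := by
    rcases Nat.eq_zero_or_pos m' with h | h
    · rw [h] at hm'; omega
    · exact h
  have hmle : m' ≤ q + 1 := by
    have : m' ≤ a * m' := Nat.le_mul_of_pos_left m' ha0
    omega
  -- the congruence
  obtain ⟨q', rfl⟩ : ∃ q', q = q' + 1 := ⟨q - 1, by omega⟩
  have key : 2 * c + (q' + 1 + 2) * (q' * c) = 2 * m' + (q' + 1 + 2) * (2 * m' * t) := by
    have h4 : (q' + 1 + 1) * (q' + 1) * c = m' * (2 * k) := by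
      rw [hm', ← E1]
      ring
    have h5' : m' * (2 * k) = 2 * m' * ((q' + 1 + 2) * t) + 2 * m' := by
      rw [E3]
      ring
    have h6 : (q' + 1 + 1) * (q' + 1) * c = 2 * c + (q' + 1 + 2) * (q' * c) := by ring
    rw [← h6, h4, h5']
    ring
  have hmod : 2 * c ≡ 2 * m' [MOD (q' + 1 + 2)] := by
    have h7 : 2 * c + (q' + 1 + 2) * (q' * c) ≡ 2 * c [MOD (q' + 1 + 2)] := by
      simp [Nat.ModEq]
    have h8 : 2 * m' + (q' + 1 + 2) * (2 * m' * t) ≡ 2 * m' [MOD (q' + 1 + 2)] := by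
      simp [Nat.ModEq]
    exact (h7.symm.trans (key ▸ Nat.ModEq.refl _)).trans h8
  have hmod' : c ≡ m' [MOD (q' + 1 + 2)] :=
    Nat.ModEq.cancel_left_of_coprime
      ((Nat.coprime_primes hp Nat.prime_two).mpr (by omega)) hmod
  have hcm : c = m' := Nat.ModEq.eq_of_lt_of_lt hmod' (by omega) (by omega)
  subst hcm
  have hc1' : c = 1 := by
    have h9 : c ∣ q' + 1 + 1 := ⟨a, by rw [hm']; ring⟩
    have h10 : c ∣ 1 := (Nat.dvd_add_right hcd).mp h9
    exact Nat.dvd_one.mp h10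
  subst hc1'
  refine ⟨?_, s, ?_⟩
  · rw [hc, hm']
    ring
  · rw [hm', mul_one]

end Cfsg.Agent.Lib.Helper52.FTARITH
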