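import Mathlib
import Cfsg.Agent.Lib.Helper80.S4705Stmt

/-!
# S4705 piece LOCG: `C_G(P) = P × Z(G)`, `Z(G)` is a `p'`-group, `|N_G(P)| = 2 p |Z(G)|`
-/

set_option autoImplicit false

namespace Cfsg.Agent.Lib.Helper52.FTLOCG

open Cfsg Cfsg.Agent.Lib.Helper80.S4705Stmt

universe u

section

variable {G : Type u} [Group G]

/-- a `p`-element centralizing a Sylow `p`-subgroup lies in it -/
theorem mem_sylow_of_commute {p : ℕ} (P : Sylow p G) {y : G} {a : ℕ}
    (hy : y ^ p ^ a = 1) (hc : ∀ x ∈ (P : Subgroup G), y * x = x * y) : y ∈ (P : Subgroup G) := by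
  have hH : IsPGroup p ↥(Subgroup.zpowers y) := by
    rintro ⟨g, hg⟩
    obtain ⟨i, rfl⟩ := Subgroup.mem_zpowers_iff.mp hg
    refine ⟨a, Subtype.ext ?_⟩
    simp only [SubmonoidClass.mk_pow, Subgroup.coe_one]
    rw [← zpow_natCast, ← zpow_mul, mul_comm, zpow_mul, zpow_natCast, hy, one_zpow]
  have hle : Subgroup.zpowers y ≤ Subgroup.normalizer ((P : Subgroup G) : Set G) := by
    rw [Subgroup.zpowers_le, Subgroup.mem_normalizer_iff]
    intro h
    constructor
    · intro hh
      have e : y * h * y⁻¹ = h := by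
        rw [hc h hh]
        group
      rw [e]
      exact hh
    · intro hh
      have h1 := hc _ hh
      have e : y * h * y⁻¹ = h := by
        have h2 : y * (y * h * y⁻¹) = y * h := by
          rw [h1]
          group
        exact mul_left_cancel h2
      rw [← e]
      exact hh
  have hsup := IsPGroup.to_sup_of_normal_right' hH P.isPGroup' hle
  have heq := P.is_maximal' hsup le_sup_right
  have hmem : y ∈ Subgroup.zpowers y ⊔ (P : Subgroup G) :=
    Subgroup.mem_sup_left (Subgroup.mem_zpowers y)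
  rw [heq] at hmem
  exact hmem

theorem center_pprime [Finite G] {p : ℕ} [Fact p.Prime] (P : Sylow p G) (hp2 : 2 < p)
    (hinv : ∃ n : G, ∀ x ∈ (P : Subgroup G), n * x * n⁻¹ = x⁻¹) :
    ∀ z ∈ Subgroup.center G, ¬ p ∣ orderOf z := by
  intro z hz hdiv
  obtain ⟨n, hn⟩ := hinv
  have hwo : orderOf (z ^ (orderOf z / p)) = p :=
    orderOf_pow_orderOf_div (orderOf_pos z).ne' hdiv
  have hwZ : z ^ (orderOf z / p) ∈ Subgroup.center G := Subgroup.pow_mem _ hz _
  generalize z ^ (orderOf z / p) = w at hwo hwZ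
  have hwP : w ∈ (P : Subgroup G) := by
    apply mem_sylow_of_commute P (a := 1)
    · rw [pow_one, ← hwo]
      exact pow_orderOf_eq_one w
    · intro x _
      exact (Subgroup.mem_center_iff.mp hwZ x).symm
  have h1 := hn w hwP
  have h2 : n * w * n⁻¹ = w := by
    rw [Subgroup.mem_center_iff.mp hwZ n]
    group
  rw [h2] at h1
  have h3 : w ^ 2 = 1 := by
    rw [sq]
    nth_rewrite 1 [h1]
    exact inv_mul_cancel w
  have h4 := orderOf_dvd_of_pow_eq_one h3
  rw [hwo] at h4
  have := Nat.le_of_dvd (by norm_num) h4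
  omega

theorem cent_decomp [Finite G] {p : ℕ} [Fact p.Prime] (P : Sylow p G) (hreg : CentReg G p P) :
    ∀ c : G, (∀ x ∈ (P : Subgroup G), c * x = x * c) →
      ∃ x ∈ (P : Subgroup G), ∃ z ∈ Subgroup.center G, c = x * z := by
  intro c hc
  have hp : p.Prime := Fact.out
  have ho : orderOf c ≠ 0 := (orderOf_pos c).ne'
  have hdec : p ^ (orderOf c).factorization p * (orderOf c / p ^ (orderOf c).factorization p)
      = orderOf c := Nat.ordProj_mul_ordCompl_eq_self _ p
  have hcop : Nat.Coprime p (orderOf c / p ^ (orderOf c).factorization p) :=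
    Nat.coprime_ordCompl hp ho
  generalize (orderOf c).factorization p = a at hdec hcop
  generalize orderOf c / p ^ a = m at hdec hcop
  have hco : Nat.Coprime (p ^ a) m := Nat.Coprime.pow_left a hcop
  obtain ⟨e, he1, he2⟩ := Nat.chineseRemainder hco 1 0
  obtain ⟨f, hf1, hf2⟩ := Nat.chineseRemainder hco 0 1
  have hsum : c ^ e * c ^ f = c := by
    rw [← pow_add]
    have h1 : e + f ≡ 1 [MOD p ^ a] := by simpa using he1.add hf1
    have h2 : e + f ≡ 1 [MOD m] := by simpa using he2.add hf2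
    have h3 : e + f ≡ 1 [MOD orderOf c] := by
      rw [← hdec]
      exact (Nat.modEq_and_modEq_iff_modEq_mul hco).mp ⟨h1, h2⟩
    have h4 := pow_eq_pow_iff_modEq.mpr h3
    rw [h4, pow_one]
  have hce : (c ^ e) ^ p ^ a = 1 := by
    rw [← pow_mul]
    apply orderOf_dvd_iff_pow_eq_one.mp
    rw [← hdec, mul_comm e]
    exact Nat.mul_dvd_mul (dvd_refl _) ((Nat.modEq_zero_iff_dvd).mp he2)
  have hcf : (c ^ f) ^ m = 1 := by
    rw [← pow_mul]
    apply orderOf_dvd_iff_pow_eq_one.mp
    rw [← hdec]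
    exact Nat.mul_dvd_mul ((Nat.modEq_zero_iff_dvd).mp hf1) (dvd_refl _)
  have hcomm : ∀ k : ℕ, ∀ x ∈ (P : Subgroup G), c ^ k * x = x * c ^ k := by
    intro k x hx
    exact (Commute.pow_left (show Commute c x from hc x hx) k).eq
  refine ⟨c ^ e, mem_sylow_of_commute P hce (hcomm e), c ^ f, ?_, hsum.symm⟩
  apply hreg _ (hcomm f)
  intro hdiv
  have h1 : orderOf (c ^ f) ∣ m := orderOf_dvd_of_pow_eq_one hcf
  have h2 : p ∣ m := hdiv.trans h1
  exact hp.one_lt.ne' (Nat.Coprime.eq_one_of_dvd hcop h2)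

theorem card_normalizer [Finite G] {p : ℕ} [Fact p.Prime] (P : Sylow p G) (hp2 : 2 < p)
    (hcard : Nat.card P = p) (hinv : NormInv G p P)
    (h1 : ∀ c : G, (∀ x ∈ (P : Subgroup G), c * x = x * c) →
      ∃ x ∈ (P : Subgroup G), ∃ z ∈ Subgroup.center G, c = x * z)
    (h2 : ∀ z ∈ Subgroup.center G, ¬ p ∣ orderOf z) :
    Nat.card ↥(Subgroup.normalizer ((P : Subgroup G) : Set G)) =
      2 * p * Nat.card ↥(Subgroup.center G) := by
  have hp : p.Prime := Fact.out
  have hCN : Subgroup.centralizer ((P : Subgroup G) : Set G) ≤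
      Subgroup.normalizer ((P : Subgroup G) : Set G) := Subgroup.centralizer_le_normalizer _
  -- elements of `P` have order dividing `p`
  have hord : ∀ x ∈ (P : Subgroup G), orderOf x ∣ p := by
    intro x hx
    have := Subgroup.orderOf_dvd_natCard (P : Subgroup G) hx
    rwa [hcard] at this
  -- `P ∩ Z = 1`
  have hPZ : ∀ y ∈ (P : Subgroup G), y ∈ Subgroup.center G → y = 1 := by
    intro y hy hyZ
    rcases (Nat.dvd_prime hp).mp (hord y hy) with h | h
    · exact orderOf_eq_one_iff.mp h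
    · exact absurd (h ▸ dvd_refl _) (h2 y hyZ)
  -- `P` is abelian
  have hPab : ∀ x ∈ (P : Subgroup G), ∀ y ∈ (P : Subgroup G), x * y = y * x := by
    intro x hx y hy
    have hcyc : IsCyclic ↥(P : Subgroup G) := isCyclic_of_prime_card hcard
    obtain ⟨g, hg⟩ := hcyc.exists_generator
    obtain ⟨i, hi⟩ := Subgroup.mem_zpowers_iff.mp (hg ⟨x, hx⟩)
    obtain ⟨j, hj⟩ := Subgroup.mem_zpowers_iff.mp (hg ⟨y, hy⟩)
    have h3 : (⟨x, hx⟩ : ↥(P : Subgroup G)) * ⟨y, hy⟩ = ⟨y, hy⟩ * ⟨x, hx⟩ := by
      rw [← hi, ← hj, ← zpow_add, ← zpow_add, add_comm]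
    exact congrArg Subtype.val h3
  -- not every element of `P` is an involution
  have hne : ¬ ∀ x ∈ (P : Subgroup G), x = x⁻¹ := by
    intro hall
    have hnt : (P : Subgroup G) ≠ ⊥ := by
      intro hbot
      have : Nat.card ↥(P : Subgroup G) = 1 := by
        rw [hbot]
        exact Subgroup.card_bot
      rw [hcard] at this
      omega
    obtain ⟨x, hx1⟩ := (Subgroup.ne_bot_iff_exists_ne_one.mp hnt)
    have hx' : (x : G) ∈ (P : Subgroup G) := x.2
    have h3 : (x : G) ^ 2 = 1 := by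
      rw [sq]
      nth_rewrite 1 [hall x hx']
      exact inv_mul_cancel (x : G)
    have h4 := orderOf_dvd_of_pow_eq_one h3
    have h5 := hord x hx'
    have h6 : orderOf (x : G) ∣ Nat.gcd 2 p := Nat.dvd_gcd h4 h5
    have h7 : Nat.gcd 2 p = 1 := (Nat.coprime_primes Nat.prime_two hp).mpr (by omega)
    rw [h7] at h6
    have h8 : (x : G) = 1 := orderOf_eq_one_iff.mp (Nat.dvd_one.mp h6)
    exact hx1 (Subtype.ext h8)
  -- `|C| = p |Z|`
  have hcardC : Nat.card ↥(Subgroup.centralizer ((P : Subgroup G) : Set G)) =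
      p * Nat.card ↥(Subgroup.center G) := by
    have hmem : ∀ (x : ↥(P : Subgroup G)) (z : ↥(Subgroup.center G)),
        (x : G) * (z : G) ∈ Subgroup.centralizer ((P : Subgroup G) : Set G) := by
      intro x z
      rw [Subgroup.mem_centralizer_iff]
      intro h hh
      have hz := Subgroup.mem_center_iff.mp z.2
      calc h * ((x : G) * (z : G)) = (h * (x : G)) * (z : G) := by group
        _ = ((x : G) * h) * (z : G) := by rw [hPab h hh x x.2]
        _ = (x : G) * (h * (z : G)) := by group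
        _ = (x : G) * ((z : G) * h) := by rw [hz h]
        _ = (x : G) * (z : G) * h := by group
    let φ : ↥(P : Subgroup G) × ↥(Subgroup.center G) →
        ↥(Subgroup.centralizer ((P : Subgroup G) : Set G)) :=
      fun q => ⟨(q.1 : G) * (q.2 : G), hmem q.1 q.2⟩
    have hinj : Function.Injective φ := by
      rintro ⟨x, z⟩ ⟨x', z'⟩ h
      have h3 : (x : G) * (z : G) = (x' : G) * (z' : G) := congrArg Subtype.val h
      have h4 : (x' : G)⁻¹ * (x : G) = (z' : G) * (z : G)⁻¹ := by
        calc (x' : G)⁻¹ * (x : G) = (x' : G)⁻¹ * ((x : G) * (z : G)) * (z : G)⁻¹ := by group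
          _ = (x' : G)⁻¹ * ((x' : G) * (z' : G)) * (z : G)⁻¹ := by rw [h3]
          _ = (z' : G) * (z : G)⁻¹ := by group
      have h5 : (x' : G)⁻¹ * (x : G) = 1 := by
        apply hPZ _ ((P : Subgroup G).mul_mem ((P : Subgroup G).inv_mem x'.2) x.2)
        rw [h4]
        exact (Subgroup.center G).mul_mem z'.2 ((Subgroup.center G).inv_mem z.2)
      have h6 : (x : G) = (x' : G) := by
        have := congrArg (fun t => (x' : G) * t) h5
        simpa using this
      have h7 : (z : G) = (z' : G) := by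
        rw [h6] at h3
        exact mul_left_cancel h3
      exact Prod.ext (Subtype.ext h6) (Subtype.ext h7)
    have hsurj : Function.Surjective φ := by
      rintro ⟨c, hc⟩
      rw [Subgroup.mem_centralizer_iff] at hc
      obtain ⟨x, hx, z, hz, rfl⟩ := h1 c (fun x hx => (hc x hx).symm)
      exact ⟨(⟨x, hx⟩, ⟨z, hz⟩), rfl⟩
    rw [← Nat.card_congr (Equiv.ofBijective φ ⟨hinj, hsurj⟩), Nat.card_prod, hcard]
  -- the index of `C` in `N` is two
  have hidx : ((Subgroup.centralizer ((P : Subgroup G) : Set G)).subgroupOf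
      (Subgroup.normalizer ((P : Subgroup G) : Set G))).index = 2 := by
    rw [Subgroup.index_eq_two_iff]
    obtain ⟨n₀, hn₀⟩ := hinv.1
    have hn₀N : n₀ ∈ Subgroup.normalizer ((P : Subgroup G) : Set G) := by
      rw [Subgroup.mem_normalizer_iff]
      intro h
      constructor
      · intro hh
        rw [hn₀ h hh]
        exact (P : Subgroup G).inv_mem hh
      · intro hh
        have h3 := hn₀ _ ((P : Subgroup G).inv_mem hh)
        rw [inv_inv] at h3
        have h4 : (n₀ * h * n₀⁻¹)⁻¹ = h := by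
          have h5 : n₀ * (n₀ * h * n₀⁻¹)⁻¹ = n₀ * h := by
            have : n₀ * (n₀ * h * n₀⁻¹)⁻¹ = n₀ * (n₀ * h * n₀⁻¹)⁻¹ * n₀⁻¹ * n₀ := by group
            rw [this, h3]
            group
          exact mul_left_cancel h5
        rw [← h4]
        exact (P : Subgroup G).inv_mem hh
    have hcen_iff : ∀ g : G, g ∈ Subgroup.centralizer ((P : Subgroup G) : Set G) ↔
        ∀ x ∈ (P : Subgroup G), g * x * g⁻¹ = x := by
      intro g
      rw [Subgroup.mem_centralizer_iff]
      constructor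
      · intro h x hx
        rw [← h x hx]
        group
      · intro h x hx
        have := h x hx
        rw [mul_inv_eq_iff_eq_mul] at this
        exact this.symm
    refine ⟨⟨n₀, hn₀N⟩, fun b => ?_⟩
    rw [Subgroup.mem_subgroupOf, Subgroup.mem_subgroupOf, hcen_iff, hcen_iff]
    have hprod : ∀ x : G, ((b * ⟨n₀, hn₀N⟩ : ↥(Subgroup.normalizer ((P : Subgroup G) : Set G))) : G)
        * x * ((b * ⟨n₀, hn₀N⟩ : ↥(Subgroup.normalizer ((P : Subgroup G) : Set G))) : G)⁻¹
        = (b : G) * (n₀ * x * n₀⁻¹) * (b : G)⁻¹ := by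
      intro x
      simp only [Subgroup.coe_mul]
      group
    rcases hinv.2 b.1 b.2 with hb | hb
    · right
      refine ⟨hb, fun hcon => hne fun x hx => ?_⟩
      have h3 := hcon x hx
      rw [hprod, hn₀ x hx, hb _ ((P : Subgroup G).inv_mem hx)] at h3
      exact h3.symm
    · left
      refine ⟨fun x hx => ?_, fun hcon => hne fun x hx => ?_⟩
      · rw [hprod, hn₀ x hx, hb _ ((P : Subgroup G).inv_mem hx), inv_inv]
      · exact (hcon x hx).symm.trans (hb x hx)
  have hfin := Subgroup.card_mul_index ((Subgroup.centralizer ((P : Subgroup G) : Set G)).subgroupOf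
      (Subgroup.normalizer ((P : Subgroup G) : Set G)))
  rw [hidx, Nat.card_congr (Subgroup.subgroupOfEquivOfLe hCN).toEquiv, hcardC] at hfin
  rw [← hfin]
  ring

end

theorem main : Cfsg.Agent.Lib.Helper80.S4705Stmt.LocGP.{u} := by
  intro G _ _ p _ P hp2 hcard hreg hinv
  have h1 := cent_decomp P hreg
  have h2 := center_pprime P hp2 hinv.1
  exact ⟨h1, h2, card_normalizer P hp2 hcard hinv h1 h2⟩

end Cfsg.Agent.Lib.Helper52.FTLOCG
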