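import Mathlib
import Cfsg.Agent.Lib.Helper80.S4705Stmt
import Cfsg.Agent.Lib.Helper52.FTLOCG

/-!
# S4705 piece CEXT: cyclic Sylow `r`-subgroups of the central quotient of a perfect group
-/

set_option autoImplicit false

namespace Cfsg.Agent.Lib.Helper52.FTCEXT

open Cfsg Cfsg.Agent.Lib.Helper80.S4705Stmt

universe u

theorem main : Cfsg.Agent.Lib.Helper80.S4705Stmt.CExt.{u} := by
  intro G _ _ r _ hperf hcyc hdiv
  have hr : r.Prime := Fact.out
  obtain ⟨z', hz'⟩ := exists_prime_orderOf_dvd_card' r hdiv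
  have hzo : orderOf (z' : G) = r := by rw [Subgroup.orderOf_coe, hz']
  have hzZ : (z' : G) ∈ Subgroup.center G := z'.2
  generalize (z' : G) = z at hzo hzZ
  have hzc : ∀ g : G, g * z = z * g := Subgroup.mem_center_iff.mp hzZ
  obtain R : Sylow r G := default
  have hzR : z ∈ (R : Subgroup G) := by
    apply Cfsg.Agent.Lib.Helper52.FTLOCG.mem_sylow_of_commute R (a := 1)
    · rw [pow_one, ← hzo]
      exact pow_orderOf_eq_one z
    · intro x _
      exact (hzc x).symm
  -- `R` is abelian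
  have hab : ∀ x ∈ (R : Subgroup G), ∀ y ∈ (R : Subgroup G), x * y = y * x := by
    obtain ⟨Q, hQ⟩ := (R.isPGroup'.map (QuotientGroup.mk' (Subgroup.center G))).exists_le_sylow
    obtain ⟨⟨q, hq⟩, hgen⟩ := (hcyc Q).exists_generator
    obtain ⟨g, rfl⟩ := QuotientGroup.mk_surjective q
    have key : ∀ x ∈ (R : Subgroup G), ∃ i : ℤ, ∃ w ∈ Subgroup.center G, x = g ^ i * w := by
      intro x hx
      have hxQ : (QuotientGroup.mk' (Subgroup.center G)) x ∈ (Q : Subgroup _) :=
        hQ (Subgroup.mem_map_of_mem _ hx)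
      obtain ⟨i, hi⟩ := Subgroup.mem_zpowers_iff.mp (hgen ⟨_, hxQ⟩)
      have h1 : ((g ^ i : G) : G ⧸ Subgroup.center G) = (x : G ⧸ Subgroup.center G) := by
        have := congrArg Subtype.val hi
        simpa using this
      rw [QuotientGroup.eq] at h1
      exact ⟨i, _, h1, by group⟩
    intro x hx y hy
    obtain ⟨i, w₁, hw₁, rfl⟩ := key x hx
    obtain ⟨j, w₂, hw₂, rfl⟩ := key y hy
    have c1 := Subgroup.mem_center_iff.mp hw₁
    have c2 := Subgroup.mem_center_iff.mp hw₂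
    have hgg : g ^ i * g ^ j = g ^ j * g ^ i := by rw [← zpow_add, ← zpow_add, add_comm]
    calc g ^ i * w₁ * (g ^ j * w₂) = g ^ i * (w₁ * g ^ j) * w₂ := by group
      _ = g ^ i * (g ^ j * w₁) * w₂ := by rw [← c1 (g ^ j)]
      _ = (g ^ i * g ^ j) * (w₁ * w₂) := by group
      _ = (g ^ j * g ^ i) * (w₂ * w₁) := by rw [hgg, ← c1 w₂]
      _ = g ^ j * (g ^ i * w₂) * w₁ := by group
      _ = g ^ j * (w₂ * g ^ i) * w₁ := by rw [c2 (g ^ i)]
      _ = g ^ j * w₂ * (g ^ i * w₁) := by group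
  -- `commutator R = ⊥`
  have hcomm : commutator ↥(R : Subgroup G) = ⊥ := by
    rw [commutator_def, Subgroup.commutator_eq_bot_iff_le_centralizer]
    intro x _
    rw [Subgroup.mem_centralizer_iff]
    intro y _
    exact Subtype.ext (hab y y.2 x x.2)
  -- transfer
  have hT : ∀ g : G, MonoidHom.transfer (H := (R : Subgroup G))
      (Abelianization.of (G := ↥(R : Subgroup G))) g = 1 := by
    intro g
    have h1 := Abelianization.commutator_subset_ker (MonoidHom.transfer (H := (R : Subgroup G))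
      (Abelianization.of (G := ↥(R : Subgroup G))))
    rw [hperf] at h1
    exact MonoidHom.mem_ker.mp (h1 (Subgroup.mem_top g))
  have hkey : ∀ (k : ℕ) (g₀ : G), g₀⁻¹ * z ^ k * g₀ ∈ (R : Subgroup G) →
      g₀⁻¹ * z ^ k * g₀ = z ^ k := by
    intro k g₀ _
    have h1 : g₀ * z ^ k = z ^ k * g₀ :=
      Subgroup.mem_center_iff.mp (Subgroup.pow_mem _ hzZ k) g₀
    calc g₀⁻¹ * z ^ k * g₀ = g₀⁻¹ * (z ^ k * g₀) := by group
      _ = g₀⁻¹ * (g₀ * z ^ k) := by rw [h1]
      _ = z ^ k := by group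
  have h2 := MonoidHom.transfer_eq_pow (Abelianization.of (G := ↥(R : Subgroup G))) z hkey
  rw [hT z] at h2
  have h3 := MonoidHom.mem_ker.mpr h2.symm
  rw [Abelianization.ker_of, hcomm, Subgroup.mem_bot] at h3
  have h4 : z ^ (R : Subgroup G).index = 1 := congrArg Subtype.val h3
  have h5 : orderOf z ∣ (R : Subgroup G).index := orderOf_dvd_of_pow_eq_one h4
  rw [hzo] at h5
  exact R.not_dvd_index h5

end Cfsg.Agent.Lib.Helper52.FTCEXT
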