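import Mathlib
import Cfsg.Agent.Lib.Helper80.S4705Stmt

/-!
# S4705 piece GLZ: `G = L × Z(G)`
-/

set_option autoImplicit false

namespace Cfsg.Agent.Lib.Helper52.FTGLZ

open Cfsg Cfsg.Agent.Lib.Helper80.S4705Stmt

universe u

theorem main : Cfsg.Agent.Lib.Helper80.S4705Stmt.GLZ.{u} := by
  intro G _ _ p _ P hp2 hcard hinv hloc hn₀ hZL
  obtain ⟨n₀, hn₀L, hn₀⟩ := hn₀
  obtain ⟨hC, -, -⟩ := hloc
  have hLn : (Subgroup.normalClosure ((P : Subgroup G) : Set G)).Normal :=
    Subgroup.normalClosure_normal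
  have hPL : (P : Subgroup G) ≤ Subgroup.normalClosure ((P : Subgroup G) : Set G) :=
    Subgroup.le_normalClosure
  generalize Subgroup.normalClosure ((P : Subgroup G) : Set G) = L at hn₀L hZL hLn hPL ⊢
  -- G = L Z
  have hLZ : ∀ g : G, ∃ l ∈ L, ∃ z ∈ Subgroup.center G, g = l * z := by
    intro g
    have hfr := Sylow.normalizer_sup_eq_top (P.subtype hPL)
    have e : Subgroup.map L.subtype ↑(P.subtype hPL) = (P : Subgroup G) := by
      rw [Sylow.coe_subtype, Subgroup.subgroupOf_map_subtype]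
      exact inf_of_le_left hPL
    rw [e] at hfr
    have hg : g ∈ Subgroup.normalizer ((P : Subgroup G) : Set G) ⊔ L := by
      rw [hfr]
      trivial
    rw [Subgroup.mem_sup_of_normal_right] at hg
    obtain ⟨n, hn, l, hl, rfl⟩ := hg
    rcases hinv.2 n hn with hcen | hinvn
    · obtain ⟨x, hx, z, hz, rfl⟩ := hC n (fun x hx => by
        have := hcen x hx
        rw [mul_inv_eq_iff_eq_mul] at this
        exact this)
      refine ⟨x * l, L.mul_mem (hPL hx) hl, z, hz, ?_⟩
      have := Subgroup.mem_center_iff.mp hz l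
      rw [mul_assoc, mul_assoc, this]
    · have hcen : ∀ x ∈ (P : Subgroup G), (n₀⁻¹ * n) * x = x * (n₀⁻¹ * n) := by
        intro x hx
        have h1 := hinvn x hx
        have h2 := hn₀ x hx
        have h1' : n * x = x⁻¹ * n := by
          rw [← h1]
          group
        have h2' : n₀⁻¹ * x⁻¹ = x * n₀⁻¹ := by
          rw [← h2]
          group
        calc n₀⁻¹ * n * x = n₀⁻¹ * (n * x) := by group
          _ = n₀⁻¹ * x⁻¹ * n := by rw [h1']; group
          _ = x * (n₀⁻¹ * n) := by rw [h2']; group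
      obtain ⟨x, hx, z, hz, hxz⟩ := hC _ hcen
      refine ⟨n₀ * x * l, L.mul_mem (L.mul_mem hn₀L (hPL hx)) hl, z, hz, ?_⟩
      have hn' : n = n₀ * (x * z) := by
        rw [← hxz]
        group
      have := Subgroup.mem_center_iff.mp hz l
      rw [hn']
      calc n₀ * (x * z) * l = n₀ * x * (z * l) := by group
        _ = n₀ * x * (l * z) := by rw [this]
        _ = n₀ * x * l * z := by group
  -- L ∩ Z = 1
  have hint : ∀ y ∈ L, y ∈ Subgroup.center G → y = 1 := by
    intro y hy hyZ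
    have h1 : (⟨y, hy⟩ : ↥L) ∈ Subgroup.center ↥L := by
      rw [Subgroup.mem_center_iff]
      intro g
      exact Subtype.ext (Subgroup.mem_center_iff.mp hyZ g)
    rw [hZL, Subgroup.mem_bot] at h1
    exact congrArg Subtype.val h1
  -- the isomorphism
  let f : ↥L × ↥(Subgroup.center G) →* G := MonoidHom.mk' (fun q => (q.1 : G) * (q.2 : G)) (by
    rintro ⟨l, z⟩ ⟨l', z'⟩
    simp only [Prod.mk_mul_mk, Subgroup.coe_mul]
    have := Subgroup.mem_center_iff.mp z.2 (l' : G)
    calc (l : G) * l' * (z * z') = l * (l' * z) * z' := by group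
      _ = l * (z * l') * z' := by rw [this]
      _ = l * z * (l' * z') := by group)
  have hinj : Function.Injective f := by
    rw [injective_iff_map_eq_one]
    rintro ⟨l, z⟩ h
    have h1 : (l : G) * (z : G) = 1 := h
    have h2 : (l : G) = (z : G)⁻¹ := eq_inv_of_mul_eq_one_left h1
    have h3 : (l : G) = 1 := hint _ l.2 (h2 ▸ (Subgroup.center G).inv_mem z.2)
    have h4 : (z : G) = 1 := by
      rw [h3, one_mul] at h1
      exact h1
    exact Prod.ext (Subtype.ext h3) (Subtype.ext h4)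
  have hsurj : Function.Surjective f := by
    intro g
    obtain ⟨l, hl, z, hz, rfl⟩ := hLZ g
    exact ⟨(⟨l, hl⟩, ⟨z, hz⟩), rfl⟩
  exact ⟨(MulEquiv.ofBijective f ⟨hinj, hsurj⟩).symm⟩

end Cfsg.Agent.Lib.Helper52.FTGLZ
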