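import Mathlib
import Cfsg.Agent.Lib.Helper80.FTStmt

/-!
# S3999 piece HALLK: the join of the normal Sylow subgroups for the primes of `k`
-/

set_option autoImplicit false

universe u

namespace Cfsg.Agent.Lib.Helper52.FTHALLK

open Cfsg.Agent.Lib.Helper80.FTStmt

theorem card_sup_dvd' {G : Type*} [Group G] [Finite G] (H K : Subgroup G) [K.Normal] :
    Nat.card ↥(H ⊔ K) ∣ Nat.card H * Nat.card K := by
  have h1 : (⊥ : Subgroup G).relIndex K * K.relIndex (H ⊔ K) =
      (⊥ : Subgroup G).relIndex (H ⊔ K) :=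
    Subgroup.relIndex_mul_relIndex ⊥ K (H ⊔ K) bot_le le_sup_right
  rw [Subgroup.relIndex_bot_left, Subgroup.relIndex_bot_left, Subgroup.relIndex_sup_right] at h1
  rw [← h1, mul_comm (Nat.card H)]
  exact Nat.mul_dvd_mul_left _ (Subgroup.relIndex_dvd_card K H)

theorem sup_normal_card {G : Type*} [Group G] [Finite G] (S : ℕ → Subgroup G)
    (hSn : ∀ p, (S p).Normal) (s : Finset ℕ) :
    (s.sup S).Normal ∧ Nat.card ↥(s.sup S) ∣ ∏ p ∈ s, Nat.card (S p) := by
  classical
  induction s using Finset.induction_on with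
  | empty =>
    refine ⟨?_, ?_⟩
    · rw [Finset.sup_empty]; infer_instance
    · rw [Finset.sup_empty, Finset.prod_empty, Subgroup.card_bot]
  | insert a s ha ih =>
    have := hSn a
    have := ih.1
    refine ⟨?_, ?_⟩
    · rw [Finset.sup_insert]; infer_instance
    · rw [Finset.sup_insert, Finset.prod_insert ha]
      exact (card_sup_dvd' (S a) (s.sup S)).trans (Nat.mul_dvd_mul_left _ ih.2)

theorem main : HallK.{u} := by
  intro G _ _ k h hcard hcop hsyl
  classical
  have hGpos : 0 < Nat.card G := Nat.card_pos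
  have hk0 : k ≠ 0 := by
    rintro rfl
    rw [zero_mul] at hcard
    omega
  have hh0 : h ≠ 0 := by
    rintro rfl
    rw [mul_zero] at hcard
    omega
  have hex : ∀ p : ℕ, ∃ P : Subgroup G, P.Normal ∧
      (p ∈ k.primeFactors → Nat.card P = p ^ k.factorization p) := by
    intro p
    by_cases hp : p ∈ k.primeFactors
    · have hpp : p.Prime := Nat.prime_of_mem_primeFactors hp
      have : Fact p.Prime := ⟨hpp⟩
      have hpk : p ∣ k := Nat.dvd_of_mem_primeFactors hp
      obtain ⟨P, hP⟩ := hsyl p hpk
      refine ⟨P, hP, fun _ => ?_⟩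
      have hph : ¬ p ∣ h := (hpp.coprime_iff_not_dvd).mp (Nat.Coprime.coprime_dvd_left hpk hcop)
      have hfh : h.factorization p = 0 := Nat.factorization_eq_zero_of_not_dvd hph
      rw [Sylow.card_eq_multiplicity, hcard, Nat.factorization_mul hk0 hh0, Finsupp.add_apply,
        hfh, add_zero]
    · exact ⟨⊥, inferInstance, fun h => absurd h hp⟩
  choose S hSn hScard using hex
  obtain ⟨hLn, hLdvd⟩ := sup_normal_card S hSn k.primeFactors
  have hprod : ∏ p ∈ k.primeFactors, Nat.card (S p) = k := by
    have h1 := Nat.prod_factorization_pow_eq_self hk0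
    rw [Finsupp.prod, Nat.support_factorization] at h1
    rw [Finset.prod_congr rfl (fun p hp => hScard p hp)]
    exact h1
  rw [hprod] at hLdvd
  have hL0 : Nat.card ↥(k.primeFactors.sup S) ≠ 0 := Nat.card_pos.ne'
  have hkL : k ∣ Nat.card ↥(k.primeFactors.sup S) := by
    rw [← Nat.factorization_le_iff_dvd hk0 hL0]
    intro p
    by_cases hp : p ∈ k.primeFactors
    · have hpp := Nat.prime_of_mem_primeFactors hp
      have h1 : p ^ k.factorization p ∣ Nat.card ↥(k.primeFactors.sup S) := by
        rw [← hScard p hp]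
        exact Subgroup.card_dvd_of_le (Finset.le_sup hp)
      exact (hpp.pow_dvd_iff_le_factorization hL0).mp h1
    · have hz : k.factorization p = 0 := by
        rw [← Finsupp.notMem_support_iff, Nat.support_factorization]; exact hp
      rw [hz]; exact Nat.zero_le _
  exact ⟨k.primeFactors.sup S, hLn, Nat.dvd_antisymm hLdvd hkL⟩

end Cfsg.Agent.Lib.Helper52.FTHALLK
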