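import Mathlib
import Cfsg.Agent.Lib.Helper80.S4705Stmt

/-!
# S4705 piece ORDG: the order of the group
-/

set_option autoImplicit false

namespace Cfsg.Agent.Lib.Helper52.FTORDG

open Cfsg Cfsg.Agent.Lib.Helper80.S4705Stmt

universe u

theorem main : Cfsg.Agent.Lib.Helper80.S4705Stmt.OrdG.{u} := by
  intro hArith G _ _ p _ P ζ hHyp hLoc hZodd hE hR hdvd
  obtain ⟨h5, hPcard, -, -, -, -⟩ := hHyp
  obtain ⟨-, hZp, hN⟩ := hLoc
  have hp : p.Prime := Fact.out
  have hGZ : Nat.card ↥(Subgroup.center G) * (Subgroup.center G).index = Nat.card G :=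
    Subgroup.card_mul_index (Subgroup.center G)
  have hz0 : Nat.card ↥(Subgroup.center G) ≠ 0 := Nat.card_pos.ne'
  have hn0 : (Subgroup.center G).index ≠ 0 := Subgroup.index_ne_zero_of_finite
  have hfac : ∀ r, (Nat.card G).factorization r =
      (Nat.card ↥(Subgroup.center G)).factorization r +
        (Subgroup.center G).index.factorization r := by
    intro r
    rw [← hGZ, Nat.factorization_mul hz0 hn0]
    rfl
  have hres := hArith p (Subgroup.center G).index hp h5 ?_ ?_ ?_ hdvd ?_
  · obtain ⟨h1, h2⟩ := hres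
    refine ⟨?_, h2⟩
    rw [← hGZ, h1]
    ring
  · -- odd primes
    intro r hr hr2 hrp
    have : Fact r.Prime := ⟨hr⟩
    obtain R : Sylow r G := default
    have h1 := hR r hr2 hrp R
    rw [Sylow.card_eq_multiplicity, hfac r] at h1
    have hpg : IsPGroup r ↥((R : Subgroup G) ⊓ Subgroup.center G) :=
      R.isPGroup'.to_le inf_le_left
    obtain ⟨w, hw⟩ := IsPGroup.iff_card.mp hpg
    have hwle : w ≤ (Nat.card ↥(Subgroup.center G)).factorization r := by
      rw [← hr.pow_dvd_iff_le_factorization hz0, ← hw]
      exact Subgroup.card_dvd_of_le inf_le_right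
    rw [hw] at h1
    have h2 : r ^ w * r ^ ((Subgroup.center G).index.factorization r) ∣ r ^ w * (p - 2) ^ 2 := by
      rw [mul_comm (r ^ w) ((p - 2) ^ 2)]
      refine Dvd.dvd.trans ?_ h1
      rw [pow_add]
      exact Nat.mul_dvd_mul (pow_dvd_pow r hwle) (dvd_refl _)
    exact Nat.dvd_of_mul_dvd_mul_left (pow_pos hr.pos w) h2
  · -- the prime 2
    have hv2 : (Nat.card ↥(Subgroup.center G)).factorization 2 = 0 :=
      Nat.factorization_eq_zero_of_not_dvd (fun h => by
        rcases hZodd with ⟨t, ht⟩
        omega)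
    have h1 := hE default
    rw [Sylow.card_eq_multiplicity, hfac 2, hv2, zero_add] at h1
    exact h1
  · -- the prime p
    have hvp : (Nat.card G).factorization p = 1 := by
      have h1 := P.card_eq_multiplicity
      rw [hPcard] at h1
      have h2 : p ^ 1 = p ^ (Nat.card G).factorization p := by
        rw [pow_one]
        exact h1
      exact (Nat.pow_right_injective hp.two_le h2).symm
    have hvz : (Nat.card ↥(Subgroup.center G)).factorization p = 0 := by
      apply Nat.factorization_eq_zero_of_not_dvd
      intro hdiv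
      obtain ⟨g, hg⟩ := exists_prime_orderOf_dvd_card' p hdiv
      exact hZp (g : G) g.2 (by rw [Subgroup.orderOf_coe, hg])
    have := hfac p
    omega
  · -- Sylow counting
    refine ⟨Nat.card (Sylow p G), ?_, ?_⟩
    · have h1 : Nat.card (Sylow p G) =
          (Subgroup.normalizer ((P : Subgroup G) : Set G)).index :=
        Sylow.card_eq_index_normalizer P
      have h2 := Subgroup.card_mul_index (Subgroup.normalizer ((P : Subgroup G) : Set G))
      rw [hN, ← h1, ← hGZ] at h2
      have h3 : Nat.card ↥(Subgroup.center G) * (2 * p * Nat.card (Sylow p G)) =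
          Nat.card ↥(Subgroup.center G) * (Subgroup.center G).index := by
        rw [← h2]
        ring
      exact (Nat.eq_of_mul_eq_mul_left (Nat.pos_of_ne_zero hz0) h3).symm
    · have h1 := card_sylow_modEq_one p G
      rw [Nat.ModEq, Nat.mod_eq_of_lt hp.one_lt] at h1
      exact h1

end Cfsg.Agent.Lib.Helper52.FTORDG
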