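import Mathlib
import Cfsg.Agent.Lib.Helper80.S4705Stmt

/-!
# S4705 piece PERFNN: `P` is not normal in its normal closure
-/

set_option autoImplicit false

namespace Cfsg.Agent.Lib.Helper52.FTPERFNN

open Cfsg Cfsg.Agent.Lib.Helper80.S4705Stmt

universe u

theorem main : Cfsg.Agent.Lib.Helper80.S4705Stmt.PerfNN.{u} := by
  intro G _ _ p _ P hP hN
  apply hP
  have hLn : (Subgroup.normalClosure ((P : Subgroup G) : Set G)).Normal :=
    Subgroup.normalClosure_normal
  have hchar : (↑(P.subtype (Subgroup.le_normalClosure (H := (P : Subgroup G)))) :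
      Subgroup ↥(Subgroup.normalClosure ((P : Subgroup G) : Set G))).Characteristic :=
    Sylow.characteristic_of_normal _ hN
  have h := ConjAct.normal_of_characteristic_of_normal
    (H := Subgroup.normalClosure ((P : Subgroup G) : Set G))
    (K := ↑(P.subtype (Subgroup.le_normalClosure (H := (P : Subgroup G)))))
  have e : Subgroup.map (Subgroup.normalClosure ((P : Subgroup G) : Set G)).subtype
      ↑(P.subtype (Subgroup.le_normalClosure (H := (P : Subgroup G)))) = (P : Subgroup G) := by
    rw [Sylow.coe_subtype, Subgroup.subgroupOf_map_subtype]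
    exact inf_of_le_left Subgroup.le_normalClosure
  rw [e] at h
  exact h

end Cfsg.Agent.Lib.Helper52.FTPERFNN
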