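import Mathlib
import Cfsg.Agent.Lib.Helper80.S4705Stmt

/-!
# S4705 piece POWB: exponents
-/

set_option autoImplicit false

namespace Cfsg.Agent.Lib.Helper52.FTPOWB

open Cfsg Cfsg.Agent.Lib.Helper80.S4705Stmt

universe u

theorem main : Cfsg.Agent.Lib.Helper80.S4705Stmt.PowB.{u} := by
  intro G _ _ p _ hp2
  have hp : p.Prime := Fact.out
  have hN0 : Nat.card G ≠ 0 := Nat.card_pos.ne'
  have hNm : 2 ^ (Nat.card G).factorization 2 * (Nat.card G / 2 ^ (Nat.card G).factorization 2)
      = Nat.card G := Nat.ordProj_mul_ordCompl_eq_self (Nat.card G) 2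
  have hco2 : Nat.Coprime 2 (Nat.card G / 2 ^ (Nat.card G).factorization 2) :=
    Nat.coprime_ordCompl Nat.prime_two hN0
  generalize (Nat.card G).factorization 2 = s at hNm hco2
  generalize Nat.card G / 2 ^ s = m at hNm hco2
  have hco : Nat.Coprime (2 ^ s) m := Nat.Coprime.pow_left s hco2
  obtain ⟨c, hc1, hc2⟩ := Nat.chineseRemainder hco 1 2
  have hcN : Nat.Coprime c (Nat.card G) := by
    rw [← hNm]
    apply Nat.Coprime.mul_right
    · have h1 := hc1.gcd_eq
      rw [Nat.Coprime, h1]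
      simp
    · have h1 := hc2.gcd_eq
      rw [Nat.Coprime, h1]
      exact hco2
  refine ⟨c, ?_, ?_, ?_⟩
  · intro g hodd
    rw [pow_eq_pow_iff_modEq]
    have hd : orderOf g ∣ m := by
      have h1 : orderOf g ∣ 2 ^ s * m := hNm ▸ orderOf_dvd_natCard g
      exact Nat.Coprime.dvd_of_dvd_mul_left
        (Nat.Coprime.pow_right s (Nat.coprime_two_right.mpr hodd)) h1
    exact Nat.ModEq.of_dvd hd hc2
  · intro g k hk
    have hd : orderOf g ∣ 2 ^ s := by
      have h1 : 2 ^ k ∣ 2 ^ s * m := by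
        rw [hNm, ← hk]
        exact orderOf_dvd_natCard g
      have h2 : 2 ^ k ∣ 2 ^ s :=
        Nat.Coprime.dvd_of_dvd_mul_right (Nat.Coprime.pow_left k hco2) h1
      rw [hk]
      exact h2
    have h3 := Nat.ModEq.of_dvd hd hc1
    have h4 : g ^ c = g ^ 1 := pow_eq_pow_iff_modEq.mpr h3
    rw [h4, pow_one]
  · intro j hj
    have hNM : p ^ (Nat.card G).factorization p * (Nat.card G / p ^ (Nat.card G).factorization p)
        = Nat.card G := Nat.ordProj_mul_ordCompl_eq_self (Nat.card G) p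
    have hcoM : Nat.Coprime p (Nat.card G / p ^ (Nat.card G).factorization p) :=
      Nat.coprime_ordCompl hp hN0
    generalize (Nat.card G).factorization p = a at hNM hcoM
    generalize Nat.card G / p ^ a = M at hNM hcoM
    have hco' : Nat.Coprime (p ^ (a + 1)) M := Nat.Coprime.pow_left _ hcoM
    obtain ⟨b, hb1, hb2⟩ := Nat.chineseRemainder hco' j c
    have hbp : b ≡ j [MOD p] := Nat.ModEq.of_dvd (dvd_pow_self p (Nat.succ_ne_zero a)) hb1
    refine ⟨b, ?_, ?_, ?_⟩
    · rw [← hNM]
      apply Nat.Coprime.mul_right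
      · apply Nat.Coprime.pow_right
        rw [Nat.coprime_comm, Nat.Prime.coprime_iff_not_dvd hp]
        intro h
        exact hj ((Nat.ModEq.dvd_iff hbp (dvd_refl p)).mp h)
      · have h1 := hb2.gcd_eq
        rw [Nat.Coprime, h1]
        exact Nat.Coprime.coprime_dvd_right (Dvd.intro_left _ hNM) hcN
    · intro x hx
      rw [pow_eq_pow_iff_modEq, hx]
      exact hbp
    · intro g hg
      rw [pow_eq_pow_iff_modEq]
      have hd : orderOf g ∣ M := by
        have h1 : orderOf g ∣ p ^ a * M := hNM ▸ orderOf_dvd_natCard g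
        exact Nat.Coprime.dvd_of_dvd_mul_left
          (Nat.Coprime.pow_right a ((Nat.Prime.coprime_iff_not_dvd hp).mpr hg).symm) h1
      exact Nat.ModEq.of_dvd hd hb2

end Cfsg.Agent.Lib.Helper52.FTPOWB
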