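import Mathlib
import Cfsg.Agent.Lib.Helper80.S4705Stmt
import Cfsg.Agent.Lib.Helper52.FTLOCG

/-!
# S4705 piece QUOT: the central quotient satisfies the hypotheses of S4701
-/

set_option autoImplicit false

namespace Cfsg.Agent.Lib.Helper52.FTQUOT

open Cfsg Cfsg.Agent.Lib.Helper80.S4705Stmt

universe u

/-- two elements whose images lie in a cyclic subgroup of the central quotient commute -/
theorem comm_of_cyclic_quot {G : Type u} [Group G] (Q : Subgroup (G ⧸ Subgroup.center G))
    (hQ : IsCyclic ↥Q) {x y : G} (hx : (x : G ⧸ Subgroup.center G) ∈ Q)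
    (hy : (y : G ⧸ Subgroup.center G) ∈ Q) : x * y = y * x := by
  obtain ⟨⟨q, hq⟩, hgen⟩ := hQ.exists_generator
  obtain ⟨g, rfl⟩ := QuotientGroup.mk_surjective q
  have key : ∀ x : G, (x : G ⧸ Subgroup.center G) ∈ Q →
      ∃ i : ℤ, ∃ w ∈ Subgroup.center G, x = g ^ i * w := by
    intro x hxQ
    obtain ⟨i, hi⟩ := Subgroup.mem_zpowers_iff.mp (hgen ⟨_, hxQ⟩)
    have h1 : ((g ^ i : G) : G ⧸ Subgroup.center G) = (x : G ⧸ Subgroup.center G) := by
      have := congrArg Subtype.val hi
      simpa using this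
    rw [QuotientGroup.eq] at h1
    exact ⟨i, _, h1, by group⟩
  obtain ⟨i, w₁, hw₁, rfl⟩ := key x hx
  obtain ⟨j, w₂, hw₂, rfl⟩ := key y hy
  have c1 := Subgroup.mem_center_iff.mp hw₁
  have c2 := Subgroup.mem_center_iff.mp hw₂
  have hgg : g ^ i * g ^ j = g ^ j * g ^ i := by rw [← zpow_add, ← zpow_add, add_comm]
  calc g ^ i * w₁ * (g ^ j * w₂) = g ^ i * (w₁ * g ^ j) * w₂ := by group
    _ = g ^ i * (g ^ j * w₁) * w₂ := by rw [← c1 (g ^ j)]
    _ = (g ^ i * g ^ j) * (w₁ * w₂) := by group
    _ = (g ^ j * g ^ i) * (w₂ * w₁) := by rw [hgg, ← c1 w₂]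
    _ = g ^ j * (g ^ i * w₂) * w₁ := by group
    _ = g ^ j * (w₂ * g ^ i) * w₁ := by rw [c2 (g ^ i)]
    _ = g ^ j * w₂ * (g ^ i * w₁) := by group

theorem main : Cfsg.Agent.Lib.Helper80.S4705Stmt.Quot.{u} := by
  intro G _ _ p _ P ζ hHyp hperf hZodd hLoc hcard
  obtain ⟨h5, hPcard, hPnn, -, -, -⟩ := hHyp
  have hp : p.Prime := Fact.out
  have hcardQ : Nat.card (G ⧸ Subgroup.center G) = p * (p - 1) * (p - 2) := by
    have h1 := Subgroup.card_eq_card_quotient_mul_card_subgroup (Subgroup.center G)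
    rw [hcard] at h1
    exact (Nat.eq_of_mul_eq_mul_right Nat.card_pos h1).symm
  refine ⟨?_, hcardQ, ?_, ?_⟩
  · -- perfect
    have h1 : Subgroup.map (QuotientGroup.mk' (Subgroup.center G)) ⁅(⊤ : Subgroup G), ⊤⁆ =
        ⁅(⊤ : Subgroup (G ⧸ Subgroup.center G)), ⊤⁆ := by
      rw [Subgroup.map_commutator,
        Subgroup.map_top_of_surjective _ (QuotientGroup.mk'_surjective _)]
    rw [commutator_def, ← h1, ← commutator_def, hperf,
      Subgroup.map_top_of_surjective _ (QuotientGroup.mk'_surjective _)]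
  · -- Sylow `p`-subgroups are not normal
    intro Q hQn
    apply hPnn
    have hQcard : Nat.card ↥(Q : Subgroup (G ⧸ Subgroup.center G)) = p := by
      have hnd : ¬ p ∣ (p - 1) * (p - 2) := by
        intro h
        rcases (Nat.Prime.dvd_mul hp).mp h with h | h
        · have := Nat.le_of_dvd (by omega) h
          omega
        · have := Nat.le_of_dvd (by omega) h
          omega
      have hne : (p - 1) * (p - 2) ≠ 0 := Nat.mul_ne_zero (by omega) (by omega)
      rw [Sylow.card_eq_multiplicity, hcardQ, mul_assoc, Nat.factorization_mul hp.ne_zero hne,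
        Finsupp.add_apply, hp.factorization_self, Nat.factorization_eq_zero_of_not_dvd hnd, pow_one]
    have hQcyc : IsCyclic ↥(Q : Subgroup (G ⧸ Subgroup.center G)) := isCyclic_of_prime_card hQcard
    have hPQ : ∀ x ∈ (P : Subgroup G), (x : G ⧸ Subgroup.center G) ∈ (Q : Subgroup _) := by
      obtain ⟨Q', hQ'⟩ :=
        (P.isPGroup'.map (QuotientGroup.mk' (Subgroup.center G))).exists_le_sylow
      obtain ⟨g, hg⟩ := MulAction.exists_smul_eq (G ⧸ Subgroup.center G) Q Q'
      have hQn' := hQn
      rw [Sylow.smul_eq_of_normal] at hg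
      subst hg
      intro x hx
      exact hQ' (Subgroup.mem_map_of_mem _ hx)
    constructor
    intro x hx g
    apply Cfsg.Agent.Lib.Helper52.FTLOCG.mem_sylow_of_commute P (a := 1)
    · rw [pow_one]
      have h1 : x ^ p = 1 := by
        have := Subgroup.orderOf_dvd_natCard (P : Subgroup G) hx
        rw [hPcard] at this
        exact orderOf_dvd_iff_pow_eq_one.mp this
      rw [conj_pow, h1]
      group
    · intro x' hx'
      apply comm_of_cyclic_quot _ hQcyc _ (hPQ x' hx')
      have := hQn.conj_mem _ (hPQ x hx) (g : G ⧸ Subgroup.center G)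
      simpa using this
  · -- no normal subgroup of order two
    intro N hN hN2
    obtain ⟨⟨a, haN⟩, ha1, hauniq⟩ := (Nat.card_eq_two_iff' (1 : ↥N)).mp hN2
    have ha1' : a ≠ 1 := fun h => ha1 (Subtype.ext h)
    have hall : ∀ b ∈ N, b = 1 ∨ b = a := by
      intro b hb
      by_cases hb1 : b = 1
      · exact Or.inl hb1
      · right
        have := hauniq ⟨b, hb⟩ (fun h => hb1 (congrArg Subtype.val h))
        exact congrArg Subtype.val this
    have haa : a * a = 1 := by
      rcases hall (a * a) (N.mul_mem haN haN) with h | h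
      · exact h
      · exact absurd (mul_left_cancel (a := a) (b := a) (c := 1) (by rw [h, mul_one])) ha1'
    obtain ⟨t, rfl⟩ := QuotientGroup.mk_surjective a
    obtain ⟨k, hk⟩ := hZodd
    obtain ⟨s, hs⟩ : ∃ s : G, s = t ^ Nat.card ↥(Subgroup.center G) := ⟨_, rfl⟩
    have hπs : (s : G ⧸ Subgroup.center G) = (t : G ⧸ Subgroup.center G) := by
      rw [hs, hk, QuotientGroup.mk_pow, pow_succ, pow_mul, sq, haa, one_pow, one_mul]
    have ht2 : t * t ∈ Subgroup.center G := by
      rw [← QuotientGroup.eq_one_iff, QuotientGroup.mk_mul]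
      exact haa
    have hs2 : s * s = 1 := by
      have h1 : (⟨t * t, ht2⟩ : ↥(Subgroup.center G)) ^ Nat.card ↥(Subgroup.center G) = 1 :=
        pow_card_eq_one'
      have h2 := congrArg Subtype.val h1
      simp only [SubmonoidClass.mk_pow, Subgroup.coe_one] at h2
      rw [hs, ← (Commute.refl t).mul_pow]
      exact h2
    have hNcyc : IsCyclic ↥N := isCyclic_of_prime_card (p := 2) hN2
    have hsN : (s : G ⧸ Subgroup.center G) ∈ N := hπs ▸ haN
    have hsZ : s ∈ Subgroup.center G := by
      rw [Subgroup.mem_center_iff]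
      intro g
      have hcN : ((g * s * g⁻¹ : G) : G ⧸ Subgroup.center G) ∈ N := by
        have := hN.conj_mem _ hsN (g : G ⧸ Subgroup.center G)
        simpa using this
      have hc_eq : ((g * s * g⁻¹ : G) : G ⧸ Subgroup.center G) =
          (s : G ⧸ Subgroup.center G) := by
        rcases hall _ hcN with h | h
        · exfalso
          apply ha1'
          rw [← hπs]
          have h' : (g : G ⧸ Subgroup.center G) * (s : G ⧸ Subgroup.center G) *
              (g : G ⧸ Subgroup.center G)⁻¹ = 1 := by simpa using h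
          exact conj_eq_one_iff.mp h'
        · rw [h, hπs]
      have hcomm : (g * s * g⁻¹) * s = s * (g * s * g⁻¹) :=
        comm_of_cyclic_quot N hNcyc hcN hsN
      have hu : (g * s * g⁻¹) * s⁻¹ ∈ Subgroup.center G := by
        rw [← QuotientGroup.eq_one_iff, QuotientGroup.mk_mul, hc_eq, QuotientGroup.mk_inv,
          mul_inv_cancel]
      have hs' : s⁻¹ = s := inv_eq_of_mul_eq_one_right hs2
      have hu2 : ((g * s * g⁻¹) * s⁻¹) ^ 2 = 1 := by
        rw [hs', sq]
        calc g * s * g⁻¹ * s * (g * s * g⁻¹ * s)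
            = g * s * g⁻¹ * (s * (g * s * g⁻¹)) * s := by group
          _ = g * s * g⁻¹ * ((g * s * g⁻¹) * s) * s := by rw [hcomm]
          _ = g * (s * s) * g⁻¹ * (s * s) := by group
          _ = 1 := by rw [hs2]; group
      have hu1 : (g * s * g⁻¹) * s⁻¹ = 1 := by
        have h1 := orderOf_dvd_of_pow_eq_one hu2
        have h2 : orderOf ((g * s * g⁻¹) * s⁻¹) ∣ Nat.card ↥(Subgroup.center G) :=
          Subgroup.orderOf_dvd_natCard _ hu
        have h3 : orderOf ((g * s * g⁻¹) * s⁻¹) ∣ Nat.gcd 2 (Nat.card ↥(Subgroup.center G)) :=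
          Nat.dvd_gcd h1 h2
        have h4 : Nat.gcd 2 (Nat.card ↥(Subgroup.center G)) = 1 := by
          rw [hk]
          simp
        rw [h4] at h3
        exact orderOf_eq_one_iff.mp (Nat.dvd_one.mp h3)
      have h5 : g * s * g⁻¹ = s := by
        rw [mul_inv_eq_one] at hu1
        exact hu1
      calc g * s = g * s * g⁻¹ * g := by group
        _ = s * g := by rw [h5]
    apply ha1'
    rw [← hπs]
    exact (QuotientGroup.eq_one_iff s).mpr hsZ

end Cfsg.Agent.Lib.Helper52.FTQUOT
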