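import Mathlib
import Cfsg.Agent.Lib.Helper80.S4705Stmt

/-!
# S4705 piece SLCYC: Sylow `r`-subgroups of `SL(2, F)` with `|R|` dividing `|F| - 1` are cyclic
-/

set_option autoImplicit false

namespace Cfsg.Agent.Lib.Helper52.FTSLCYC

open Cfsg Cfsg.Agent.Lib.Helper80.S4705Stmt

universe u

/-- the split torus -/
def torus (F : Type) [Field F] : Fˣ →* Matrix.SpecialLinearGroup (Fin 2) F where
  toFun a := ⟨!![(a : F), 0; 0, ((a⁻¹ : Fˣ) : F)], by simp [Matrix.det_fin_two]⟩
  map_one' := by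
    ext i j
    fin_cases i <;> fin_cases j <;> simp
  map_mul' a b := by
    apply Subtype.ext
    change !![((a * b : Fˣ) : F), 0; 0, (((a * b)⁻¹ : Fˣ) : F)] =
      !![(a : F), 0; 0, ((a⁻¹ : Fˣ) : F)] * !![(b : F), 0; 0, ((b⁻¹ : Fˣ) : F)]
    rw [Matrix.mul_fin_two]
    simp [mul_comm]

theorem torus_injective (F : Type) [Field F] : Function.Injective (torus F) := by
  intro a b h
  have := congrArg (fun A : Matrix.SpecialLinearGroup (Fin 2) F => A.1 0 0) h
  simp [torus] at this
  exact Units.ext this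

theorem main : Cfsg.Agent.Lib.Helper80.S4705Stmt.SLCyc.{u} := by
  intro F _ _ X _ _ e r _ hdiv R
  classical
  have hr : r.Prime := Fact.out
  obtain ⟨a, ha⟩ := IsCyclic.exists_generator (α := Fˣ)
  obtain ⟨g, hg⟩ : ∃ g : X, g = e.symm (torus F a) := ⟨_, rfl⟩
  have hord : orderOf g = Fintype.card F - 1 := by
    rw [hg, MulEquiv.orderOf_eq e.symm,
      orderOf_injective (torus F) (torus_injective F), orderOf_eq_card_of_forall_mem_zpowers ha,
      Nat.card_eq_fintype_card, Fintype.card_units]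
  have hdvd : r ^ (Nat.card X).factorization r ∣ Nat.card ↥(Subgroup.zpowers g) := by
    rw [Nat.card_zpowers, hord]
    exact hdiv _ (Nat.ordProj_dvd _ _)
  obtain ⟨K', hK'⟩ := Sylow.exists_subgroup_card_pow_prime r hdvd
  have hK'cyc : IsCyclic ↥K' := inferInstance
  have eK : ↥K' ≃* ↥(K'.map (Subgroup.zpowers g).subtype) :=
    K'.equivMapOfInjective _ (Subgroup.subtype_injective _)
  have hKcard : Nat.card ↥(K'.map (Subgroup.zpowers g).subtype) =
      r ^ (Nat.card X).factorization r := by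
    rw [← hK', Nat.card_congr eK.toEquiv]
  have eRS : ↥(R : Subgroup X) ≃* ↥(Sylow.ofCard (K'.map (Subgroup.zpowers g).subtype) hKcard :
      Subgroup X) := Sylow.equiv R _
  have hScyc : IsCyclic ↥(Sylow.ofCard (K'.map (Subgroup.zpowers g).subtype) hKcard :
      Subgroup X) := (MulEquiv.isCyclic eK).mp hK'cyc
  exact (MulEquiv.isCyclic eRS).mpr hScyc

end Cfsg.Agent.Lib.Helper52.FTSLCYC
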