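import Mathlib
import Cfsg.Agent.Lib.Helper80.FTStmt

/-!
# S3999 piece SYLTR: a normal Sylow `p`-subgroup transfers along an order-preserving bijection
-/

set_option autoImplicit false

universe u v

namespace Cfsg.Agent.Lib.Helper52.FTSYLTR

open Cfsg.Agent.Lib.Helper80.FTStmt

/-- the set of `p`-elements -/
def pel (p : ℕ) (X : Type*) [Group X] : Set X := {x | ∃ n : ℕ, orderOf x = p ^ n}

theorem sylow_le_pel {X : Type*} [Group X] [Finite X] (p : ℕ) [Fact p.Prime] (Q : Sylow p X) :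
    ((Q : Subgroup X) : Set X) ⊆ pel p X := by
  intro x hx
  obtain ⟨k, hk⟩ := Q.2 ⟨x, hx⟩
  have h1 : x ^ p ^ k = 1 := by
    have := congrArg Subtype.val hk
    simpa using this
  have h2 : orderOf x ∣ p ^ k := orderOf_dvd_of_pow_eq_one h1
  obtain ⟨n, -, hn⟩ := (Nat.dvd_prime_pow (Fact.out : p.Prime)).mp h2
  exact ⟨n, hn⟩

theorem pel_le_normal_sylow {X : Type*} [Group X] [Finite X] (p : ℕ) [Fact p.Prime]
    (P : Sylow p X) (hP : (P : Subgroup X).Normal) : pel p X ⊆ ((P : Subgroup X) : Set X) := by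
  rintro x ⟨n, hn⟩
  have hpg : IsPGroup p (Subgroup.zpowers x) := by
    apply IsPGroup.of_card (n := n)
    rw [Nat.card_zpowers, hn]
  obtain ⟨Q, hQ⟩ := hpg.exists_le_sylow
  have hU := Sylow.unique_of_normal P hP
  have hQP : Q = P := Subsingleton.elim Q P
  rw [hQP] at hQ
  exact hQ (Subgroup.mem_zpowers x)

theorem main : SylTr.{u, v} := by
  intro F G _ _ _ _ e he p _ ⟨P, hP⟩
  classical
  have hcardFG : Nat.card G = Nat.card F := (Nat.card_congr e).symm
  have hSF : pel p F = ((P : Subgroup F) : Set F) :=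
    Set.Subset.antisymm (pel_le_normal_sylow p P hP) (sylow_le_pel p P)
  have hSG : pel p G = e '' pel p F := by
    ext y
    constructor
    · rintro ⟨n, hn⟩
      refine ⟨e.symm y, ⟨n, ?_⟩, e.apply_symm_apply y⟩
      rw [← he (e.symm y), e.apply_symm_apply, hn]
    · rintro ⟨x, ⟨n, hn⟩, rfl⟩
      exact ⟨n, by rw [he, hn]⟩
  have hcardSG : (pel p G).ncard = Nat.card (P : Subgroup F) := by
    rw [hSG, Set.ncard_image_of_injective _ e.injective, hSF]
    exact (Nat.card_coe_set_eq _).symm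
  obtain ⟨Q⟩ : Nonempty (Sylow p G) := inferInstance
  have hQle : ((Q : Subgroup G) : Set G) ⊆ pel p G := sylow_le_pel p Q
  have hQcard : Nat.card (Q : Subgroup G) = Nat.card (P : Subgroup F) := by
    rw [Sylow.card_eq_multiplicity, Sylow.card_eq_multiplicity, hcardFG]
  have hQeq : ((Q : Subgroup G) : Set G) = pel p G := by
    apply Set.eq_of_subset_of_ncard_le hQle _ (Set.toFinite _)
    rw [hcardSG, ← hQcard]
    exact (Nat.card_coe_set_eq _).symm.le
  refine ⟨Q, ⟨fun y hy g => ?_⟩⟩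
  have hy' : y ∈ pel p G := by rw [← hQeq]; exact hy
  obtain ⟨n, hn⟩ := hy'
  have hc : g * y * g⁻¹ ∈ pel p G := ⟨n, by
    rw [← hn]
    exact (MulAut.conj g).orderOf_eq y⟩
  rw [← hQeq] at hc
  exact hc

end Cfsg.Agent.Lib.Helper52.FTSYLTR
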