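import Mathlib
import Cfsg.Agent.Lib.Helper40.GFStmt
import Cfsg.Agent.Lib.Helper40.KStr

/-!
# S5886 piece COORD: `F ^ N` is an `L`-space through `ι`, with `L`-coordinates
-/

set_option autoImplicit false

namespace Cfsg.Agent.Lib.Helper52.GFCOORD

open Cfsg.Agent.Lib.Helper40.GFStmt
open scoped Matrix

universe u

theorem main : Coord.{u} := by
  intro F L _ _ _ _ N ι
  letI modL : Module L (Fin N → F) :=
    Module.compHom (Fin N → F) (ι : L →+* Matrix (Fin N) (Fin N) F)
  have hsmul : ∀ (a : L) (v : Fin N → F), a • v = ι a *ᵥ v := fun a v => rfl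
  haveI : IsScalarTower F L (Fin N → F) := ⟨fun s a v => by
    rw [hsmul, hsmul, map_smul, Matrix.smul_mulVec]⟩
  haveI : FiniteDimensional L (Fin N → F) :=
    Module.Finite.of_restrictScalars_finite F L (Fin N → F)
  obtain ⟨Φ⟩ : Nonempty ((Fin N → F) ≃ₗ[L] (Fin (Module.finrank L (Fin N → F)) → L)) :=
    ⟨(Module.finBasis L (Fin N → F)).equivFun⟩
  refine ⟨Module.finrank L (Fin N → F), Φ.restrictScalars F, fun a x => ?_⟩
  exact Φ.map_smul a x

end Cfsg.Agent.Lib.Helper52.GFCOORD
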