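import Mathlib
import Cfsg.Agent.Lib.Helper46.PsuStmt

set_option autoImplicit false

/-!
# S5172 piece GEN (`GenRoot`), from `RootsExist`: `UJ` is generated by its root elements
-/

namespace Cfsg.Agent.Lib.Helper52.PsuGENa

open Matrix Cfsg.Agent.Lib.Helper43.SUBase Cfsg.Agent.H84.PslDefs
  Cfsg.Agent.Lib.Helper46.PsuDefs Cfsg.Agent.Lib.Helper46.PsuStmt

universe u

theorem code_inj {n i j k l : ℕ} (hj : j < n) (hl : l < n) (h : i * n + j = k * n + l) :
    i = k ∧ j = l := by
  rcases lt_trichotomy i k with h1 | h1 | h1
  · have := Nat.mul_le_mul_right n (Nat.succ_le_of_lt h1)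
    rw [Nat.succ_mul] at this
    omega
  · subst h1; exact ⟨rfl, by omega⟩
  · have := Nat.mul_le_mul_right n (Nat.succ_le_of_lt h1)
    rw [Nat.succ_mul] at this
    omega

theorem code_lt {n i j k l : ℕ} (hj : j < n) (h : i < k) : i * n + j < k * n + l := by
  have := Nat.mul_le_mul_right n (Nat.succ_le_of_lt h)
  rw [Nat.succ_mul] at this
  omega

section

variable {K : Type u} [Field K] {q : ℕ} (D : QD K q) {n : ℕ}

theorem mul_single_entry (M : Matrix (Fin n) (Fin n) K) (i j r c : Fin n) (a : K) :
    (M * Matrix.single i j a) r c = if c = j then M r i * a else 0 := by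
  by_cases h : c = j
  · subst h; rw [if_pos rfl, Matrix.mul_single_apply_same]
  · rw [if_neg h]; exact Matrix.mul_single_apply_of_ne a i j r c h M

theorem phi_eq_zero {x : K} (h : D.φ x = 0) : x = 0 := by
  have := congrArg D.φ h
  rwa [D.inv, map_zero] at this

/-- the entry identity coming from a trivial row -/
theorem entry_of_row {g : SpecialLinearGroup (Fin n) K} (hg : g ∈ GJ D n) (r : Fin n)
    (hr : ∀ l : Fin n, l ≠ r → g r l = 0) (hrr : g r r = 1) (c : Fin n) :
    D.φ (g (Fin.rev c) (Fin.rev r)) = if r = c then 1 else 0 := by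
  have h := congrFun (congrFun (mul_adjJ_of_mem D n hg) r) c
  rw [Matrix.mul_apply, Finset.sum_eq_single r, Matrix.one_apply, adjJ_apply, hrr, one_mul] at h
  · exact h
  · intro b _ hb
    rw [hr b hb, zero_mul]
  · intro h'
    exact absurd (Finset.mem_univ r) h'

/-- if the wedge entries of the rows `< k` vanish, these rows are trivial -/
theorem rows_trivial {u : SpecialLinearGroup (Fin n) K} (hu : u ∈ UJ D n) (k : ℕ)
    (h : ∀ i j : Fin n, i.val < k → i < j → j ≤ Fin.rev i → u i j = 0) :
    ∀ (t : ℕ) (i j : Fin n), i.val = t → t < k → i ≠ j → u i j = 0 := by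
  obtain ⟨hG, hut, hdiag⟩ := (mem_UJ D n u).1 hu
  intro t
  induction t using Nat.strong_induction_on with
  | _ t ih =>
    intro i j hit htk hij
    rcases lt_or_gt_of_ne hij with h1 | h1
    · by_cases h2 : j ≤ Fin.rev i
      · exact h i j (hit ▸ htk) h1 h2
      · have h3 : Fin.rev j < i := by
          have h4 : Fin.rev i < j := not_le.1 h2
          have h5 := Fin.rev_lt_rev.2 h4
          rwa [Fin.rev_rev] at h5
        have h3' : (Fin.rev j).val < t := by rw [← hit]; exact h3
        have hrow : ∀ l : Fin n, l ≠ Fin.rev j → u (Fin.rev j) l = 0 := fun l hl =>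
          ih (Fin.rev j).val h3' (Fin.rev j) l rfl (lt_trans h3' htk) (Ne.symm hl)
        have h6 := entry_of_row D hG (Fin.rev j) hrow (hdiag _) (Fin.rev i)
        rw [Fin.rev_rev, Fin.rev_rev, if_neg] at h6
        · exact phi_eq_zero D h6
        · intro h4
          exact hij (Fin.rev_injective h4).symm
    · exact hut i j h1

theorem mul_short_entry (u g : SpecialLinearGroup (Fin n) K) (i j : Fin n) (a : K)
    (hg : (g : Matrix (Fin n) (Fin n) K) = shortM D n i j a) (r c : Fin n) :
    (u * g) r c = u r c + (if c = j then u r i * a else 0)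
      - (if c = Fin.rev i then u r (Fin.rev j) * D.φ a else 0) := by
  show ((u * g : SpecialLinearGroup (Fin n) K) : Matrix (Fin n) (Fin n) K) r c = _
  rw [Matrix.SpecialLinearGroup.coe_mul, hg, shortM, Matrix.mul_sub, Matrix.mul_add,
    Matrix.mul_one, Matrix.sub_apply, Matrix.add_apply, mul_single_entry, mul_single_entry]

theorem mul_mid_entry (u g : SpecialLinearGroup (Fin n) K) (i j : Fin n) (a b : K)
    (hg : (g : Matrix (Fin n) (Fin n) K) = midM D n i j a b) (r c : Fin n) :
    (u * g) r c = u r c + (if c = j then u r i * a else 0)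
      - (if c = Fin.rev i then u r j * D.φ a else 0)
      + (if c = Fin.rev i then u r i * b else 0) := by
  show ((u * g : SpecialLinearGroup (Fin n) K) : Matrix (Fin n) (Fin n) K) r c = _
  rw [Matrix.SpecialLinearGroup.coe_mul, hg, midM, Matrix.mul_add, Matrix.mul_sub,
    Matrix.mul_add, Matrix.mul_one, Matrix.add_apply, Matrix.sub_apply, Matrix.add_apply,
    mul_single_entry, mul_single_entry, mul_single_entry]

theorem mul_long_entry (u g : SpecialLinearGroup (Fin n) K) (i : Fin n) (a : K)
    (hg : (g : Matrix (Fin n) (Fin n) K) = longM n i a) (r c : Fin n) :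
    (u * g) r c = u r c + (if c = Fin.rev i then u r i * a else 0) := by
  show ((u * g : SpecialLinearGroup (Fin n) K) : Matrix (Fin n) (Fin n) K) r c = _
  rw [Matrix.SpecialLinearGroup.coe_mul, hg, longM, Matrix.mul_add,
    Matrix.mul_one, Matrix.add_apply, mul_single_entry]

/-- the generating set -/
def Rt (D : QD K q) (n : ℕ) : Set (SpecialLinearGroup (Fin n) K) :=
  {g | g ∈ UJ D n ∧ (IsLong n g ∨ IsShort D n g ∨ IsMid D n g)}

end

theorem key (hroots : RootsExist.{u}) {K : Type u} [Field K] {q : ℕ} (D : QD K q) {n : ℕ}
    (hn : 0 < n) :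
    ∀ (d m : ℕ), m + d = n * n → ∀ u ∈ UJ D n,
      (∀ i j : Fin n, i < j → j ≤ Fin.rev i → i.val * n + j.val < m → u i j = 0) →
      u ∈ Subgroup.closure (Rt D n) := by
  intro d
  induction d with
  | zero =>
    intro m hm u hu h
    have hrows := rows_trivial D hu n (fun i j _ hij hj => h i j hij hj (by
      have h1 : i.val * n + j.val < n * n + 0 := code_lt j.isLt i.isLt
      omega))
    obtain ⟨hG, hut, hdiag⟩ := (mem_UJ D n u).1 hu
    have h1 : u = 1 := by
      apply Subtype.ext
      ext i j
      show u i j = (1 : Matrix (Fin n) (Fin n) K) i j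
      rw [Matrix.one_apply]
      by_cases hij : i = j
      · subst hij; rw [if_pos rfl]; exact hdiag i
      · rw [if_neg hij]; exact hrows i.val i j rfl i.isLt hij
    rw [h1]
    exact one_mem _
  | succ d ih =>
    intro m hm u hu h
    have hmlt : m < n * n := by omega
    have hkn : m / n < n := Nat.div_lt_of_lt_mul hmlt
    have hjn : m % n < n := Nat.mod_lt _ hn
    have hmk : m / n * n + m % n = m := by rw [mul_comm]; exact Nat.div_add_mod m n
    obtain ⟨hG, hut, hdiag⟩ := (mem_UJ D n u).1 hu
    by_cases hw : (⟨m / n, hkn⟩ : Fin n) < ⟨m % n, hjn⟩ ∧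
        (⟨m % n, hjn⟩ : Fin n) ≤ Fin.rev ⟨m / n, hkn⟩
    swap
    · refine ih (m + 1) (by omega) u hu (fun i j hij hj hc => ?_)
      by_cases hc' : i.val * n + j.val < m
      · exact h i j hij hj hc'
      · exfalso
        have hceq : i.val * n + j.val = m / n * n + m % n := by omega
        obtain ⟨h1, h2⟩ := code_inj j.isLt hjn hceq
        have hi : i = ⟨m / n, hkn⟩ := Fin.ext h1
        have hj' : j = ⟨m % n, hjn⟩ := Fin.ext h2
        rw [hi, hj'] at hij hj
        exact hw ⟨hij, hj⟩
    · obtain ⟨hw1, hw2⟩ := hw
      generalize hkf : (⟨m / n, hkn⟩ : Fin n) = kf at hw1 hw2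
      generalize hjf : (⟨m % n, hjn⟩ : Fin n) = jf at hw1 hw2
      have hkv : kf.val = m / n := by rw [← hkf]
      have hjv : jf.val = m % n := by rw [← hjf]
      have hrows : ∀ i j : Fin n, i.val < kf.val → i ≠ j → u i j = 0 := fun i j hik hij =>
        rows_trivial D hu kf.val (fun i j hik hij hj => h i j hij hj (by
          have h1 : i.val * n + j.val < kf.val * n + jf.val := code_lt j.isLt hik
          rw [hkv, hjv] at h1
          omega)) i.val i j rfl hik hij
      have hcol : ∀ r : Fin n, r ≠ kf → u r kf = 0 := by
        intro r hr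
        rcases lt_or_gt_of_ne hr with h1 | h1
        · exact hrows r kf h1 hr
        · exact hut r kf h1
      have hrowk : ∀ j : Fin n, kf < j → j < jf → u kf j = 0 := fun j h1 h2 =>
        h kf j h1 (le_trans (le_of_lt h2) hw2) (by
          have h3 : j.val < jf.val := h2
          rw [hkv]
          omega)
      have hfin : ∀ g ∈ UJ D n, g ∈ Rt D n →
          (∀ i j : Fin n, i.val < kf.val → i ≠ j → (u * g) i j = 0) →
          (∀ j : Fin n, kf < j → j ≤ jf → (u * g) kf j = 0) →
          u ∈ Subgroup.closure (Rt D n) := by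
        intro g hgU hgR ha hb
        have h1 := ih (m + 1) (by omega) (u * g) (mul_mem hu hgU) (by
          intro i j hij hj hc
          rcases lt_trichotomy i.val kf.val with h1 | h1 | h1
          · exact ha i j h1 (ne_of_lt hij)
          · have hik : i = kf := Fin.ext h1
            rw [hik] at hij hc ⊢
            refine hb j hij ?_
            rw [Fin.le_def]
            rw [hkv] at hc
            omega
          · exfalso
            have h2 : kf.val * n + jf.val < i.val * n + j.val := code_lt jf.isLt h1
            rw [hkv, hjv] at h2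
            omega)
        have h2 : u = (u * g) * g⁻¹ := by group
        rw [h2]
        exact mul_mem h1 (inv_mem (Subgroup.subset_closure hgR))
      rcases lt_or_eq_of_le hw2 with hlt | heq
      · have hkrj : kf < Fin.rev jf := by
          have h5 := Fin.rev_lt_rev.2 hlt
          rwa [Fin.rev_rev] at h5
        by_cases hne : jf = Fin.rev jf
        · -- middle root element
          obtain ⟨b, hb⟩ := D.tr (-(-(u kf jf) * D.φ (-(u kf jf)))) (by
            rw [map_neg, map_mul, D.inv, mul_comm])
          obtain ⟨g, hgU, hgM⟩ := (hroots n K q D).2.2 kf jf (-(u kf jf)) b hw1 hne (by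
            rw [hb]; ring)
          refine hfin g hgU ⟨hgU, Or.inr (Or.inr ⟨kf, jf, _, b, hw1, hne, hgM⟩)⟩ ?_ ?_
          · intro i j hik hij
            have hikf : i ≠ kf := fun h' => by rw [h'] at hik; exact lt_irrefl _ hik
            have hijf : i ≠ jf := fun h' => by
              rw [h'] at hik
              exact lt_irrefl _ (lt_trans hik hw1)
            rw [mul_mid_entry D u g kf jf _ b hgM, hrows i j hik hij, hrows i kf hik hikf,
              hrows i jf hik hijf]
            simp
          · intro j hj1 hj2
            have hjr : j ≠ Fin.rev kf := ne_of_lt (lt_of_le_of_lt hj2 hlt)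
            rw [mul_mid_entry D u g kf jf _ b hgM, if_neg hjr, if_neg hjr, hdiag kf]
            rcases lt_or_eq_of_le hj2 with h1 | h1
            · rw [hrowk j hj1 h1, if_neg (ne_of_lt h1)]; simp
            · rw [h1, if_pos rfl]; ring
        · -- short root element
          obtain ⟨g, hgU, hgM⟩ := (hroots n K q D).2.1 kf jf (-(u kf jf)) hw1 hlt hne
          refine hfin g hgU ⟨hgU, Or.inr (Or.inl ⟨kf, jf, _, hw1, hlt, hne, hgM⟩)⟩ ?_ ?_
          · intro i j hik hij
            have hikf : i ≠ kf := fun h' => by rw [h'] at hik; exact lt_irrefl _ hik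
            have hijf : i ≠ Fin.rev jf := fun h' => by
              rw [h'] at hik
              exact lt_irrefl _ (lt_trans hik hkrj)
            rw [mul_short_entry D u g kf jf _ hgM, hrows i j hik hij, hrows i kf hik hikf,
              hrows i (Fin.rev jf) hik hijf]
            simp
          · intro j hj1 hj2
            have hjr : j ≠ Fin.rev kf := ne_of_lt (lt_of_le_of_lt hj2 hlt)
            rw [mul_short_entry D u g kf jf _ hgM, if_neg hjr, hdiag kf]
            rcases lt_or_eq_of_le hj2 with h1 | h1
            · rw [hrowk j hj1 h1, if_neg (ne_of_lt h1)]; simp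
            · rw [h1, if_pos rfl]; ring
      · -- long root element
        rw [heq] at hw1 hrowk
        have hkne : kf ≠ Fin.rev kf := ne_of_lt hw1
        have hsk : D.φ (u kf (Fin.rev kf)) + u kf (Fin.rev kf) = 0 := by
          have h1 := congrFun (congrFun (mul_adjJ_of_mem D n hG) kf) (Fin.rev kf)
          rw [Matrix.mul_apply, Matrix.one_apply, if_neg hkne,
            Finset.sum_eq_add kf (Fin.rev kf) hkne] at h1
          · rw [adjJ_apply, adjJ_apply, Fin.rev_rev, hdiag kf, one_mul, map_one, mul_one] at h1
            exact h1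
          · rintro l - ⟨hl1, hl2⟩
            have hz : u kf l = 0 := by
              rcases lt_or_gt_of_ne hl1 with h2 | h2
              · exact hut kf l h2
              · rcases lt_or_gt_of_ne hl2 with h3 | h3
                · exact hrowk l h2 h3
                · have h4 : Fin.rev l < kf := by
                    have h5 := Fin.rev_lt_rev.2 h3
                    rwa [Fin.rev_rev] at h5
                  have hrow : ∀ l' : Fin n, l' ≠ Fin.rev l → u (Fin.rev l) l' = 0 :=
                    fun l' hl' => hrows (Fin.rev l) l' h4 (Ne.symm hl')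
                  have h6 := entry_of_row D hG (Fin.rev l) hrow (hdiag _) (Fin.rev kf)
                  rw [Fin.rev_rev, Fin.rev_rev, if_neg] at h6
                  · exact phi_eq_zero D h6
                  · intro h7
                    exact hl1 (Fin.rev_injective h7)
            rw [hz, zero_mul]
          · intro h'
            exact absurd (Finset.mem_univ _) h'
          · intro h'
            exact absurd (Finset.mem_univ _) h'
        have hphi : D.φ (u kf (Fin.rev kf)) = -(u kf (Fin.rev kf)) := eq_neg_of_add_eq_zero_left hsk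
        obtain ⟨g, hgU, hgM⟩ := (hroots n K q D).1 kf (-(u kf (Fin.rev kf))) hw1 (by
          rw [map_neg, hphi])
        refine hfin g hgU ⟨hgU, Or.inl ⟨kf, _, hw1, hgM⟩⟩ ?_ ?_
        · intro i j hik hij
          have hikf : i ≠ kf := fun h' => by rw [h'] at hik; exact lt_irrefl _ hik
          rw [mul_long_entry u g kf _ hgM, hrows i j hik hij, hrows i kf hik hikf]
          simp
        · intro j hj1 hj2
          rw [heq] at hj2
          rw [mul_long_entry u g kf _ hgM, hdiag kf]
          rcases lt_or_eq_of_le hj2 with h1 | h1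
          · rw [hrowk j hj1 h1, if_neg (ne_of_lt h1)]; simp
          · rw [h1, if_pos rfl]; ring

theorem main' (hroots : RootsExist.{u}) : GenRoot.{u} := by
  intro n K _ _ q D hn u hu
  exact key hroots D (by omega) (n * n) 0 (by omega) u hu
    (fun i j _ _ hc => absurd hc (Nat.not_lt_zero _))

end Cfsg.Agent.Lib.Helper52.PsuGENa
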