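import Mathlib
import Cfsg.Agent.Lib.Helper46.PsuStmt
import Cfsg.Agent.Lib.Helper46.PsuROOTS
import Cfsg.Agent.Lib.Helper52.PsuGENa

set_option autoImplicit false

/-!
# S5172 piece GEN (`GenRoot`): `UJ` is generated by its root elements
-/

namespace Cfsg.Agent.Lib.Helper52.PsuGEN

universe u

theorem main : Cfsg.Agent.Lib.Helper46.PsuStmt.GenRoot.{u} :=
  Cfsg.Agent.Lib.Helper52.PsuGENa.main' Cfsg.Agent.Lib.Helper46.PsuROOTS.main

end Cfsg.Agent.Lib.Helper52.PsuGEN
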