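import Mathlib
import Cfsg.Agent.Lib.Helper7.ReeSolvStmt
import Cfsg.Agent.Lib.Helper50.Cores
import Cfsg.Agent.S0009
import Cfsg.Agent.S0044

/-!
# S2361 piece FIT2
-/

set_option autoImplicit false

namespace Cfsg.Agent.Lib.Helper52.RSFIT2

open Cfsg.Agent.Lib.Helper42.ReeSpStmt Cfsg.Agent.Lib.Helper7.ReeSolvStmt

universe u

theorem main : Cfsg.Agent.Lib.Helper7.ReeSolvStmt.Fit2.{u} := by
  intro L _ _ hsolv hodd
  have : Fact (Nat.Prime 2) := ⟨Nat.prime_two⟩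
  refine ⟨Cfsg.pCore 2 L, (Cfsg.Agent.Lib.Helper50.Cores.pCore_mem 2).1,
    Cfsg.Agent.Lib.Helper50.Cores.pCore_isPGroup 2, ?_⟩
  have hF : Cfsg.fittingSubgroup L = Cfsg.pCore 2 L := by
    rw [Cfsg.Agent.S0009.result]
    apply le_antisymm
    · apply iSup_le
      intro p
      by_cases hp : (p : ℕ) = 2
      · rw [hp]
      · have : Fact (p : ℕ).Prime := ⟨p.2⟩
        have h0 := hodd p p.2 hp (Cfsg.pCore p L)
          (Cfsg.Agent.Lib.Helper50.Cores.pCore_mem (p : ℕ)).1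
          (Cfsg.Agent.Lib.Helper50.Cores.pCore_isPGroup (p : ℕ))
        rw [h0]
        exact bot_le
    · exact le_iSup (fun p : Nat.Primes => Cfsg.pCore (p : ℕ) L) ⟨2, Nat.prime_two⟩
  rw [← hF]
  exact Cfsg.Agent.S0044.result

end Cfsg.Agent.Lib.Helper52.RSFIT2
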