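import Mathlib
import Cfsg.Agent.Lib.Helper52.SpStmt

set_option autoImplicit false

/-!
# Assembly for S5171 from the piece statements of `SpStmt`
-/

namespace Cfsg.Agent.Lib.Helper52.SpAsm

open Matrix Cfsg.Agent.Lib.Helper43.SpBasic Cfsg.Agent.Lib.Helper43.SpSylow
open Cfsg.Agent.Lib.Helper52.SpStmt

universe u

theorem mem_normalizer_of_forall {G : Type*} [Group G] (S R : Subgroup G)
    (h : ∀ s ∈ S, ∀ r ∈ R, s * r * s⁻¹ ∈ R) {s : G} (hs : s ∈ S) :
    s ∈ Subgroup.normalizer (R : Set G) := by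
  rw [Subgroup.mem_normalizer_iff]
  intro x
  refine ⟨fun hx => h s hs x hx, fun hx => ?_⟩
  have := h s⁻¹ (S.inv_mem hs) _ hx
  simpa [mul_assoc] using this

theorem data (hclosed : Closed.{u}) (hrqb : RQBasic.{u}) (hrqc : RQCent.{u}) (hrqo : RQOpp.{u})
    (hr2b : R2Basic.{u}) (hr2c : R2Cent.{u}) (hr2o : R2Opp.{u}) (hng : NormGen.{u})
    {K : Type u} [Field K] [Fintype K] (p : ℕ) [Fact p.Prime] [CharP K p] (m : ℕ) (hm : 2 ≤ m)
    (hex : m = 2 → 3 ≤ Fintype.card K) :
    CritData p (PU : Subgroup (Cfsg.PSp m K)) (Rset m K) where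
  ne_bot := by
    intro h
    have h1 := card_PU (F := K) (m := m) (by omega : 1 ≤ m)
    rw [h, Subgroup.card_bot] at h1
    have h2 : 2 ≤ Fintype.card K := Fintype.one_lt_card
    have h3 : 1 < Fintype.card K ^ (m ^ 2) :=
      Nat.one_lt_pow (by positivity) (by omega)
    omega
  closed := hclosed m K p hm hex
  rad_le := by
    rintro R (rfl | rfl)
    · exact (hrqb m K).1
    · exact (hr2b m K).1
  rad_normal := by
    rintro R (rfl | rfl)
    · exact (hrqb m K).2
    · exact (hr2b m K).2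
  rad_cent := by
    rintro R (rfl | rfl)
    · exact hrqc m K p (by omega)
    · exact hr2c m K p hm
  rad_opp := by
    rintro R (rfl | rfl)
    · exact hrqo m K p (by omega)
    · exact hr2o m K p (by omega)
  norm_gen := hng m K p (by omega)

theorem assembly (hcrit : Crit.{u}) (hmap : MapConj.{u}) (hclosed : Closed.{u})
    (hrqb : RQBasic.{u}) (hrqc : RQCent.{u}) (hrqo : RQOpp.{u})
    (hr2b : R2Basic.{u}) (hr2c : R2Cent.{u}) (hr2o : R2Opp.{u}) (hng : NormGen.{u})
    {K : Type u} [Field K] [Fintype K] (p : ℕ) [Fact p.Prime] [CharP K p] (m : ℕ) (hm : 2 ≤ m)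
    (hex : m = 2 → 3 ≤ Fintype.card K) (S : Sylow p (Cfsg.PSp m K)) :
    (Cfsg.groupFusionSystem (S : Subgroup (Cfsg.PSp m K))).IsSimple p := by
  classical
  obtain ⟨n, -, hn⟩ := FiniteField.card K p
  have hf : 1 ≤ (n : ℕ) := n.pos
  have hm1 : 1 ≤ m := by omega
  have hd := data hclosed hrqb hrqc hrqo hr2b hr2c hr2o hng (K := K) p m hm hex
  obtain ⟨g, hg⟩ := MulAction.exists_smul_eq (Cfsg.PSp m K) (P0 hf hn hm1) S
  have h1 : (S : Subgroup (Cfsg.PSp m K)) =
      (PU : Subgroup (Cfsg.PSp m K)).map (MulAut.conj g).toMonoidHom := by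
    rw [← hg, ← P0_coe hf hn hm1]
    rfl
  have h2 := hmap hd g
  rw [← h1] at h2
  exact hcrit p S _ h2

end Cfsg.Agent.Lib.Helper52.SpAsm
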