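import Mathlib
import Cfsg.Agent.Lib.Helper52.SpStmt

set_option autoImplicit false

/-!
# S5171 piece CLP: `ClosedOfParts`
-/

namespace Cfsg.Agent.Lib.Helper52.SpCLP

open Matrix Cfsg.Agent.Lib.Helper43.SpBasic Cfsg.Agent.Lib.Helper43.SpSylow
open Cfsg.Agent.Lib.Helper43.PSLnUT (IsUT isUT_one)
open Cfsg.Agent.Lib.Helper52.SpStmt

universe u

theorem mk_congr {m : ℕ} {F : Type*} [Field F] [Finite F] {a a' s s' : Matrix (Fin m) (Fin m) F}
    (ha : IsUT a) (hs : s.IsSymm) (ha' : IsUT a') (hs' : s'.IsSymm) (h1 : a = a') (h2 : s = s') :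
    mk a s ha hs = mk a' s' ha' hs' := by
  subst h1; subst h2; rfl

theorem main : ClosedOfParts.{u} := by
  intro hCM hLC hSS hWC hC2 hUG m F _ _ p _ _ hm hex T hTle hTne hcl
  obtain ⟨i0, hi0⟩ : ∃ i0 : Fin m, (i0 : ℕ) = 0 := ⟨⟨0, by omega⟩, rfl⟩
  obtain ⟨i1, hi1⟩ : ∃ i1 : Fin m, (i1 : ℕ) = 1 := ⟨⟨1, by omega⟩, rfl⟩
  have h01 : i0 < i1 := by rw [Fin.lt_def, hi0, hi1]; exact Nat.zero_lt_one
  have hnorm : ∀ s ∈ (PU : Subgroup (Cfsg.PSp m F)), ∀ t ∈ T, s * t * s⁻¹ ∈ T := by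
    intro s hs t ht
    exact hcl t ht s (PU.mul_mem (PU.mul_mem hs (hTle ht)) (PU.inv_mem hs))
  obtain ⟨a, c, hsz, hac, hc2, hz⟩ := hCM m F p hm i0 i1 hi0 hi1 T hTle hTne hnorm
  -- the additive group of symmetric matrices `M` with `pr (mk 1 M) ∈ T`
  let T0 : AddSubgroup (Matrix (Fin m) (Fin m) F) :=
    { carrier := {M | ∃ hs : M.IsSymm, pr (mk 1 M isUT_one hs) ∈ T}
      zero_mem' := ⟨Matrix.isSymm_zero, by rw [mk_one_zero, map_one]; exact T.one_mem⟩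
      add_mem' := by
        rintro M N ⟨hM, hMT⟩ ⟨hN, hNT⟩
        refine ⟨hM.add hN, ?_⟩
        rw [← mk_one_mul M N hM hN (hM.add hN), map_mul]
        exact T.mul_mem hMT hNT
      neg_mem' := by
        rintro M ⟨hM, hMT⟩
        refine ⟨hM.neg, ?_⟩
        have h0 : (M + -M).IsSymm := by rw [add_neg_cancel]; exact Matrix.isSymm_zero
        have h1 : mk 1 M isUT_one hM * mk 1 (-M) isUT_one hM.neg = 1 := by
          rw [mk_one_mul M (-M) hM hM.neg h0, ← mk_one_zero]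
          exact mk_congr _ _ _ _ rfl (add_neg_cancel M)
        have h2 : mk 1 (-M) isUT_one hM.neg = (mk 1 M isUT_one hM)⁻¹ :=
          eq_inv_of_mul_eq_one_right h1
        rw [h2, map_inv]
        exact T.inv_mem hMT }
  have hT0 : ∀ M : Matrix (Fin m) (Fin m) F,
      M ∈ T0 ↔ ∃ hs : M.IsSymm, pr (mk 1 M isUT_one hs) ∈ T := fun M => Iff.rfl
  -- conjugates in `PU` of elements of `T` are in `T`
  have hconj : ∀ (x y g : Matrix.symplecticGroup (Fin m) F), pr x ∈ T →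
      g * x * g⁻¹ = y → y ∈ (U : Subgroup (Matrix.symplecticGroup (Fin m) F)) → pr y ∈ T := by
    intro x y g hx hg hy
    have h1 : pr g * pr x * (pr g)⁻¹ = pr y := by rw [← map_inv, ← map_mul, ← map_mul, hg]
    have h2 := hcl _ hx (pr g) (by rw [h1]; exact Subgroup.mem_map_of_mem _ hy)
    rwa [h1] at h2
  have hinv : ∀ A : Matrix (Fin m) (Fin m) F, IsUnit A.det → ∀ M ∈ T0, A * M * Aᵀ ∈ T0 := by
    rintro A hA M ⟨hM, hMT⟩
    have hs' : (A * M * Aᵀ).IsSymm := by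
      unfold Matrix.IsSymm
      rw [Matrix.transpose_mul, Matrix.transpose_mul, Matrix.transpose_transpose, hM.eq,
        Matrix.mul_assoc]
    obtain ⟨g, hg⟩ := hLC m F A M hA hM hs'
    exact ⟨hs', hconj _ _ g hMT hg (mk_mem _ _ _ _)⟩
  obtain ⟨hAlt, hSym⟩ := hSS m F hm hex T0 hinv i0 i1 hi0 hi1 a c hac hc2 ⟨hsz, hz⟩
  -- Levi root elements
  have hLevi : ∀ (i j : Fin m) (_ : i < j) (b : F) (hu : IsUT (1 + Matrix.single i j b))
      (hz0 : (0 : Matrix (Fin m) (Fin m) F).IsSymm),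
      pr (mk (1 + Matrix.single i j b) 0 hu hz0) ∈ T := by
    intro i j hij b hu hz0
    obtain ⟨g, b', hs, hg⟩ := hWC m F i j hij b hu hz0
    obtain ⟨hs2, hmem⟩ := (hT0 _).1 (hAlt i j (ne_of_lt hij) b')
    exact hconj _ _ g hmem hg (mk_mem _ _ _ _)
  -- all symmetric matrices
  have hall : ∀ M : Matrix (Fin m) (Fin m) F, M.IsSymm → M ∈ T0 := by
    by_cases h : (2 : F) ≠ 0 ∨ a ≠ 0
    · exact hSym h
    · push Not at h
      obtain ⟨h2, -⟩ := h
      have hs1 := altm_isSymm i0 i1 (1 : F)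
      have hu1 := isUT_one_add_single h01 (1 : F)
      have hs1' := zmat_isSymm i0 i1 (1 : F) 1
      obtain ⟨g, hg⟩ := hC2 m F h2 i0 i1 hi0 hi1 hs1 hu1 hs1'
      obtain ⟨_, hmem⟩ := (hT0 _).1 (hAlt i0 i1 (ne_of_lt h01) 1)
      have hy : pr (mk (1 + Matrix.single i0 i1 1) (zmat i0 i1 1 1) hu1 hs1') ∈ T :=
        hconj _ _ g hmem hg (mk_mem _ _ _ _)
      rw [mk_eq_mul, map_mul] at hy
      have hl := hLevi i0 i1 h01 1 hu1 Matrix.isSymm_zero
      have hq : pr (mk 1 (zmat i0 i1 (1 : F) 1) isUT_one hs1') ∈ T := by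
        have := T.mul_mem hy (T.inv_mem hl)
        rwa [mul_inv_cancel_right] at this
      have hz1 : zmat i0 i1 (1 : F) 1 ∈ T0 := (hT0 _).2 ⟨hs1', hq⟩
      have hz2 : zmat i0 i1 (1 : F) 0 ∈ T0 := by
        have h3 := T0.sub_mem hz1 (hAlt i0 i1 (ne_of_lt h01) 1)
        have h4 : zmat i0 i1 (1 : F) 1 - altm i0 i1 1 = zmat i0 i1 1 0 := by
          unfold zmat altm
          rw [Matrix.single_zero, Matrix.single_zero, add_zero, add_zero, add_sub_cancel_right]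
        rwa [h4] at h3
      exact (hSS m F hm hex T0 hinv i0 i1 hi0 hi1 1 0 (Or.inl one_ne_zero) (Or.inl rfl) hz2).2
        (Or.inr one_ne_zero)
  apply le_antisymm hTle
  rintro _ ⟨A, hA, rfl⟩
  obtain ⟨s, hs, L, hL, rfl⟩ := hUG m F A hA
  rw [map_mul]
  refine T.mul_mem ?_ ?_
  · obtain ⟨_, h⟩ := (hT0 s).1 (hall s hs)
    exact h
  · have hle : Subgroup.closure {x : Matrix.symplecticGroup (Fin m) F |
          ∃ (i j : Fin m) (_ : i < j) (b : F) (hu : IsUT (1 + Matrix.single i j b))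
            (hz : (0 : Matrix (Fin m) (Fin m) F).IsSymm),
            x = mk (1 + Matrix.single i j b) 0 hu hz} ≤ T.comap pr := by
      rw [Subgroup.closure_le]
      rintro x ⟨i, j, hij, b, hu, hz0, rfl⟩
      exact hLevi i j hij b hu hz0
    exact hle hL

end Cfsg.Agent.Lib.Helper52.SpCLP
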