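import Mathlib
import Cfsg.Agent.Lib.Helper41.SpFStmt

/-!
# S5975 piece EMB: the embedding `Sp_{2m'}(L) → Sp_{2d}(F) ∩ C(φ L)`
-/

set_option autoImplicit false

namespace Cfsg.Agent.Lib.Helper52.SpFEMB

open Matrix
open Cfsg.Agent.Lib.Helper41.SpFStmt

universe u

theorem mat_ext {R : Type u} [CommRing R] {ι : Type} [Fintype ι] [DecidableEq ι]
    {A B : Matrix ι ι R} (h : ∀ v, A *ᵥ v = B *ᵥ v) : A = B := by
  apply Matrix.toLin'.injective
  apply LinearMap.ext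
  intro v
  rw [Matrix.toLin'_apply, Matrix.toLin'_apply]
  exact h v

section

variable {F : Type u} [Field F] {d : ℕ} {L : Type u} [Field L] [Algebra F L] {m' : ℕ}

/-- the coordinate map -/
def Emap (φ : L →ₐ[F] Mat d F) (b : Fin m' ⊕ Fin m' → (Fin d ⊕ Fin d → F)) :
    (Fin m' ⊕ Fin m' → L) →ₗ[F] (Fin d ⊕ Fin d → F) where
  toFun c := ∑ j, φ (c j) *ᵥ b j
  map_add' c c' := by
    simp only [Pi.add_apply, map_add, Matrix.add_mulVec, Finset.sum_add_distrib]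
  map_smul' a c := by
    simp only [Pi.smul_apply, map_smul, RingHom.id_apply, Finset.smul_sum, Matrix.smul_mulVec]

/-- the matrix of `e ∘ M ∘ e⁻¹` -/
noncomputable def psiMat (e : (Fin m' ⊕ Fin m' → L) ≃ₗ[F] (Fin d ⊕ Fin d → F))
    (M : Matrix (Fin m' ⊕ Fin m') (Fin m' ⊕ Fin m') L) : Mat d F :=
  LinearMap.toMatrix' (e.toLinearMap ∘ₗ ((Matrix.mulVecLin M).restrictScalars F) ∘ₗ
    e.symm.toLinearMap)

theorem psiMat_mulVec (e : (Fin m' ⊕ Fin m' → L) ≃ₗ[F] (Fin d ⊕ Fin d → F))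
    (M : Matrix (Fin m' ⊕ Fin m') (Fin m' ⊕ Fin m') L) (v : Fin d ⊕ Fin d → F) :
    psiMat e M *ᵥ v = e (M *ᵥ e.symm v) := by
  unfold psiMat
  rw [← Matrix.toLin'_apply, Matrix.toLin'_toMatrix']
  rfl

/-- the homomorphism -/
noncomputable def psi0 (e : (Fin m' ⊕ Fin m' → L) ≃ₗ[F] (Fin d ⊕ Fin d → F)) :
    GL (Fin m' ⊕ Fin m') L →* Mat d F where
  toFun M := psiMat e (M : Matrix (Fin m' ⊕ Fin m') (Fin m' ⊕ Fin m') L)
  map_one' := by
    apply mat_ext
    intro v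
    rw [psiMat_mulVec]
    simp
  map_mul' M N := by
    apply mat_ext
    intro v
    rw [psiMat_mulVec, ← Matrix.mulVec_mulVec, psiMat_mulVec, psiMat_mulVec]
    simp [Matrix.mulVec_mulVec]

end

theorem main : Cfsg.Agent.Lib.Helper41.SpFStmt.Emb.{u} := by
  intro F _ d L _ _ φ m' b τ hbij hform
  classical
  let e : (Fin m' ⊕ Fin m' → L) ≃ₗ[F] (Fin d ⊕ Fin d → F) :=
    LinearEquiv.ofBijective (Emap φ b) hbij
  have he : ∀ c, e c = ∑ j, φ (c j) *ᵥ b j := fun c => rfl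
  let Ψ : ↥(Cfsg.spGL m' L) →* GL (Fin d ⊕ Fin d) F :=
    (psi0 e).toHomUnits.comp (Cfsg.spGL m' L).subtype
  have hΨ : ∀ (M : ↥(Cfsg.spGL m' L)) (v : Fin d ⊕ Fin d → F),
      (Ψ M).val *ᵥ v =
        e (((M : GL (Fin m' ⊕ Fin m') L) : Matrix (Fin m' ⊕ Fin m') (Fin m' ⊕ Fin m') L) *ᵥ
          e.symm v) :=
    fun M v => psiMat_mulVec e _ v
  have hφ : ∀ (a : L) (c : Fin m' ⊕ Fin m' → L), φ a *ᵥ e c = e (a • c) := by
    intro a c
    rw [he, he, Matrix.mulVec_sum]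
    apply Finset.sum_congr rfl
    intro j _
    rw [Matrix.mulVec_mulVec, ← map_mul]
    rfl
  refine ⟨Ψ, ?_, ?_⟩
  · intro M M' h
    apply Subtype.ext
    apply Units.ext
    apply mat_ext
    intro c
    have h1 := hΨ M (e c)
    have h2 := hΨ M' (e c)
    rw [h, h2, e.symm_apply_apply] at h1
    exact (e.injective h1).symm
  · intro M
    constructor
    · intro u v
      show Cfsg.sympForm d F ((Ψ M).val *ᵥ u) ((Ψ M).val *ᵥ v) = Cfsg.sympForm d F u v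
      obtain ⟨c, rfl⟩ := e.surjective u
      obtain ⟨c', rfl⟩ := e.surjective v
      rw [hΨ, hΨ, e.symm_apply_apply, e.symm_apply_apply, he, he, he c, he c', hform, hform]
      congr 1
      exact M.2 c c'
    · intro a
      apply mat_ext
      intro v
      obtain ⟨c, rfl⟩ := e.surjective v
      rw [← Matrix.mulVec_mulVec, ← Matrix.mulVec_mulVec, hφ, hΨ, hΨ, e.symm_apply_apply,
        e.symm_apply_apply, hφ]
      congr 1
      exact Matrix.mulVec_smul _ _ _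

end Cfsg.Agent.Lib.Helper52.SpFEMB
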