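import Mathlib
import Cfsg.Agent.Lib.Helper41.SpFStmt

/-!
# S5975 piece INV4P: involutions of `Sp_4` anticommute with a self-adjoint `J'`, `J'² = l`
-/

set_option autoImplicit false

namespace Cfsg.Agent.Lib.Helper52.SpFINV4P

open Matrix
open Cfsg.Agent.Lib.Helper40.SympConj (sadj)
open Cfsg.Agent.Lib.Helper41.SpFStmt

universe u

section

variable {F : Type u} [Field F] {m : ℕ}

/-- the form -/
def B (u v : Fin m ⊕ Fin m → F) : F := u ⬝ᵥ (J (Fin m) F *ᵥ v)

theorem B_add_left (u u' v : Fin m ⊕ Fin m → F) : B (u + u') v = B u v + B u' v := by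
  unfold B; rw [add_dotProduct]

theorem B_smul_left (a : F) (u v : Fin m ⊕ Fin m → F) : B (a • u) v = a * B u v := by
  unfold B; rw [smul_dotProduct]; rfl

theorem B_add_right (u v v' : Fin m ⊕ Fin m → F) : B u (v + v') = B u v + B u v' := by
  unfold B; rw [Matrix.mulVec_add, dotProduct_add]

theorem B_smul_right (a : F) (u v : Fin m ⊕ Fin m → F) : B u (a • v) = a * B u v := by
  unfold B; rw [Matrix.mulVec_smul, dotProduct_smul]; rfl

theorem B_self (v : Fin m ⊕ Fin m → F) : B v v = 0 :=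
  Cfsg.Agent.Lib.Helper40.SympConj.J_alt v

theorem B_skew (u v : Fin m ⊕ Fin m → F) : B v u = - B u v := by
  have h := B_self (u + v)
  rw [B_add_left, B_add_right, B_add_right, B_self, B_self] at h
  linear_combination h

theorem B_isom (x : Matrix (Fin m ⊕ Fin m) (Fin m ⊕ Fin m) F) (hx : sadj x * x = 1)
    (u v : Fin m ⊕ Fin m → F) : B (x *ᵥ u) (x *ᵥ v) = B u v := by
  unfold B
  have h : sadj x *ᵥ (x *ᵥ v) = v := by
    rw [Matrix.mulVec_mulVec, hx, Matrix.one_mulVec]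
  rw [Cfsg.Agent.Lib.Helper40.SympConj.adjoint_rel, h]

theorem B_nondeg (u : Fin m ⊕ Fin m → F) (h : ∀ w, B u w = 0) : u = 0 :=
  Cfsg.Agent.Lib.Helper40.SympConj.eq_zero_of_J u h

theorem mat_ext {A C : Matrix (Fin m ⊕ Fin m) (Fin m ⊕ Fin m) F}
    (h : ∀ v, A *ᵥ v = C *ᵥ v) : A = C := by
  apply Matrix.toLin'.injective
  apply LinearMap.ext
  intro v
  rw [Matrix.toLin'_apply, Matrix.toLin'_apply]
  exact h v

theorem exists_pair (h2 : (2 : F) ≠ 0) (x : Matrix (Fin m ⊕ Fin m) (Fin m ⊕ Fin m) F)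
    (hx : sadj x * x = 1) (hxx : x * x = 1) (s : F) (hs : s * s = 1)
    (hne : s • (1 : Matrix (Fin m ⊕ Fin m) (Fin m ⊕ Fin m) F) + x ≠ 0) :
    ∃ e f : Fin m ⊕ Fin m → F, x *ᵥ e = s • e ∧ x *ᵥ f = s • f ∧ B e f = -1 := by
  have hs0 : s ≠ 0 := by
    rintro rfl
    simp at hs
  obtain ⟨v, hv⟩ : ∃ v, (s • (1 : Matrix (Fin m ⊕ Fin m) (Fin m ⊕ Fin m) F) + x) *ᵥ v ≠ 0 := by
    by_contra hcon
    push Not at hcon
    apply hne
    apply mat_ext
    intro v
    rw [hcon v, Matrix.zero_mulVec]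
  have key : ∀ w, x *ᵥ ((s • (1 : Matrix (Fin m ⊕ Fin m) (Fin m ⊕ Fin m) F) + x) *ᵥ w) =
      s • ((s • (1 : Matrix (Fin m ⊕ Fin m) (Fin m ⊕ Fin m) F) + x) *ᵥ w) := by
    intro w
    rw [Matrix.mulVec_mulVec, ← Matrix.smul_mulVec]
    congr 1
    rw [Matrix.mul_add, hxx, smul_add, smul_smul, hs, one_smul, Matrix.mul_smul, Matrix.mul_one,
      add_comm]
  obtain ⟨e, he⟩ : ∃ e, e = (s • (1 : Matrix (Fin m ⊕ Fin m) (Fin m ⊕ Fin m) F) + x) *ᵥ v :=
    ⟨_, rfl⟩
  have hxe : x *ᵥ e = s • e := by rw [he]; exact key v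
  have he0 : e ≠ 0 := by rw [he]; exact hv
  obtain ⟨w, hw⟩ : ∃ w, B e w ≠ 0 := by
    by_contra hcon
    push Not at hcon
    exact he0 (B_nondeg e hcon)
  obtain ⟨f0, hf0⟩ : ∃ f0, f0 = (s • (1 : Matrix (Fin m ⊕ Fin m) (Fin m ⊕ Fin m) F) + x) *ᵥ w :=
    ⟨_, rfl⟩
  have hxf0 : x *ᵥ f0 = s • f0 := by rw [hf0]; exact key w
  have hc : B e f0 = 2 * s * B e w := by
    have e1 : f0 = s • w + x *ᵥ w := by
      rw [hf0, Matrix.add_mulVec, Matrix.smul_mulVec, Matrix.one_mulVec]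
    have e2 : B e (x *ᵥ w) = s * B e w := by
      have h3 := B_isom x hx e (x *ᵥ w)
      rw [Matrix.mulVec_mulVec, hxx, Matrix.one_mulVec, hxe, B_smul_left] at h3
      exact h3.symm
    rw [e1, B_add_right, B_smul_right, e2]
    ring
  have hc0 : B e f0 ≠ 0 := by
    rw [hc]
    exact mul_ne_zero (mul_ne_zero h2 hs0) hw
  refine ⟨e, (-(B e f0)⁻¹) • f0, hxe, ?_, ?_⟩
  · rw [Matrix.mulVec_smul, hxf0, smul_comm]
  · rw [B_smul_right]
    field_simp

theorem gram_entry (g A : Matrix (Fin m ⊕ Fin m) (Fin m ⊕ Fin m) F) (i j : Fin m ⊕ Fin m) :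
    (gᵀ * A * g) i j = (fun a => g a i) ⬝ᵥ (A *ᵥ (fun a => g a j)) := by
  simp only [Matrix.mul_apply, Matrix.transpose_apply, dotProduct, Matrix.mulVec, Finset.sum_mul,
    Finset.mul_sum]
  rw [Finset.sum_comm]
  apply Finset.sum_congr rfl
  intro a _
  apply Finset.sum_congr rfl
  intro b _
  ring

end

section four

variable {F : Type u} [Field F]

/-- the `2 × 2` block -/
def blkA (l : F) : Matrix (Fin 2) (Fin 2) F := !![0, l; 1, 0]

/-- the `2 × 2` sign block -/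
def blkE : Matrix (Fin 2) (Fin 2) F := Matrix.diagonal ![1, -1]

theorem blkA_sq (l : F) : blkA l * blkA l = l • (1 : Matrix (Fin 2) (Fin 2) F) := by
  ext i j
  fin_cases i <;> fin_cases j <;> simp [blkA, Matrix.mul_apply, Fin.sum_univ_two]

theorem blkE_A (l : F) : blkE * blkA l = -(blkA l * blkE) := by
  unfold blkE
  ext i j
  rw [Matrix.neg_apply, Matrix.diagonal_mul, Matrix.mul_diagonal]
  fin_cases i <;> fin_cases j <;> simp [blkA]

/-- the standard `J₀` -/
def J0 (l : F) : Mat 2 F := Matrix.fromBlocks (blkA l) 0 0 (blkA l)ᵀ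

/-- the standard involution -/
def D0 : Mat 2 F := Matrix.fromBlocks blkE 0 0 blkE

theorem J0_sq (l : F) : J0 l * J0 l = l • (1 : Mat 2 F) := by
  unfold J0
  rw [Matrix.fromBlocks_multiply]
  have h1 : (blkA l)ᵀ * (blkA l)ᵀ = l • (1 : Matrix (Fin 2) (Fin 2) F) := by
    rw [← Matrix.transpose_mul, blkA_sq, Matrix.transpose_smul, Matrix.transpose_one]
  simp only [Matrix.mul_zero, Matrix.zero_mul, add_zero, zero_add, blkA_sq, h1]
  rw [← Matrix.fromBlocks_one, Matrix.fromBlocks_smul]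
  simp

theorem J0_sadj (l : F) : sadj (J0 l) = J0 l := by
  unfold J0 sadj Matrix.J
  rw [Matrix.fromBlocks_transpose, Matrix.fromBlocks_neg, Matrix.fromBlocks_multiply,
    Matrix.fromBlocks_multiply]
  simp

theorem D0_J0 (l : F) : D0 * J0 l = -(J0 l * D0) := by
  unfold J0 D0
  rw [Matrix.fromBlocks_multiply, Matrix.fromBlocks_multiply, Matrix.fromBlocks_neg]
  have h1 : blkE * (blkA l)ᵀ = -((blkA l)ᵀ * (blkE : Matrix (Fin 2) (Fin 2) F)) := by
    have h := congrArg Matrix.transpose (blkE_A l)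
    rw [Matrix.transpose_mul, Matrix.transpose_neg, Matrix.transpose_mul] at h
    have hE : (blkE : Matrix (Fin 2) (Fin 2) F)ᵀ = blkE := Matrix.diagonal_transpose _
    rw [hE] at h
    rw [h, neg_neg]
  simp [blkE_A, h1]

theorem D0_eq : (D0 : Mat 2 F) = Matrix.diagonal (Sum.elim ![1, -1] ![1, -1]) := by
  unfold D0 blkE
  rw [Matrix.fromBlocks_diagonal]

end four

theorem main : Cfsg.Agent.Lib.Helper41.SpFStmt.Inv4P.{u} := by
  intro F _ _ h2 l hl x hx hxx hx1 hxm1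
  have hp : (1 : F) • (1 : Mat 2 F) + x ≠ 0 := by
    intro h
    apply hxm1
    rw [one_smul] at h
    exact eq_neg_of_add_eq_zero_right h
  have hm : (-1 : F) • (1 : Mat 2 F) + x ≠ 0 := by
    intro h
    apply hx1
    rw [neg_one_smul, neg_add_eq_zero] at h
    exact h.symm
  obtain ⟨e1, f1, he1, hf1, hef1⟩ := exists_pair h2 x hx hxx 1 (by ring) hp
  obtain ⟨e2, f2, he2, hf2, hef2⟩ := exists_pair h2 x hx hxx (-1) (by ring) hm
  have orth : ∀ u v : Fin 2 ⊕ Fin 2 → F, x *ᵥ u = (1 : F) • u → x *ᵥ v = (-1 : F) • v →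
      B u v = 0 := by
    intro u v hu hv
    have h3 := B_isom x hx u v
    rw [hu, hv, B_smul_left, B_smul_right] at h3
    have h4 : 2 * B u v = 0 := by linear_combination -h3
    rcases mul_eq_zero.1 h4 with h | h
    · exact absurd h h2
    · exact h
  obtain ⟨col, hcol⟩ : ∃ col : Fin 2 ⊕ Fin 2 → (Fin 2 ⊕ Fin 2 → F),
      col = Sum.elim ![e1, e2] ![f1, f2] := ⟨_, rfl⟩
  obtain ⟨g, hg⟩ : ∃ g : Mat 2 F, g = Matrix.of (fun a j => col j a) := ⟨_, rfl⟩
  have hgcol : ∀ j, (fun a => g a j) = col j := by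
    intro j
    rw [hg]
    rfl
  have hgram : ∀ i j, B (col i) (col j) = J (Fin 2) F i j := by
    have a1 := orth e1 e2 he1 he2
    have a2 := orth e1 f2 he1 hf2
    have a3 := orth f1 e2 hf1 he2
    have a4 := orth f1 f2 hf1 hf2
    have b1 := B_skew e1 e2
    have b2 := B_skew e1 f2
    have b3 := B_skew f1 e2
    have b4 := B_skew f1 f2
    have c1 := B_skew e1 f1
    have c2 := B_skew e2 f2
    rw [hcol]
    rintro (i | i) (j | j) <;> fin_cases i <;> fin_cases j <;>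
      simp [Matrix.J, B_self, a1, a2, a3, a4, b1, b2, b3, b4, c1, c2, hef1, hef2]
  have hgJ : gᵀ * J (Fin 2) F * g = J (Fin 2) F := by
    ext i j
    rw [gram_entry, hgcol, hgcol]
    exact hgram i j
  have hgs : sadj g * g = 1 := by
    unfold sadj
    rw [Matrix.mul_assoc, Matrix.mul_assoc, ← Matrix.mul_assoc gᵀ, hgJ]
    exact Cfsg.Agent.Lib.Helper40.SympConj.neg_J_mul_J
  have hgs' : g * sadj g = 1 := mul_eq_one_comm.1 hgs
  have hxg : x * g = g * D0 := by
    rw [D0_eq]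
    ext i j
    rw [Matrix.mul_diagonal]
    have h3 : (x * g) i j = (x *ᵥ col j) i := by
      rw [← hgcol j]
      rfl
    rw [h3]
    have h4 : x *ᵥ col j = (Sum.elim ![(1 : F), -1] ![1, -1] j) • col j := by
      rw [hcol]
      rcases j with (j | j) <;> fin_cases j <;> simp [he1, he2, hf1, hf2]
    rw [h4, ← hgcol j]
    simp [mul_comm]
  have hsx : sadj g * x = D0 * sadj g := by
    calc sadj g * x = sadj g * x * (g * sadj g) := by rw [hgs', mul_one]
      _ = sadj g * (x * g) * sadj g := by simp only [mul_assoc]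
      _ = (sadj g * g) * D0 * sadj g := by rw [hxg]; simp only [mul_assoc]
      _ = D0 * sadj g := by rw [hgs, one_mul]
  refine ⟨g * J0 l * sadj g, ?_, ?_, ?_⟩
  · calc g * J0 l * sadj g * (g * J0 l * sadj g)
        = g * J0 l * (sadj g * g) * J0 l * sadj g := by simp only [mul_assoc]
      _ = g * (J0 l * J0 l) * sadj g := by rw [hgs, mul_one]; simp only [mul_assoc]
      _ = l • 1 := by
          rw [J0_sq, Matrix.mul_smul, Matrix.mul_one, Matrix.smul_mul, hgs']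
  · rw [Cfsg.Agent.Lib.Helper40.SympConj.sadj_mul, Cfsg.Agent.Lib.Helper40.SympConj.sadj_mul,
      Cfsg.Agent.Lib.Helper40.SympConj.sadj_sadj, J0_sadj, mul_assoc]
  · calc x * (g * J0 l * sadj g) = (x * g) * J0 l * sadj g := by simp only [mul_assoc]
      _ = g * (D0 * J0 l) * sadj g := by rw [hxg]; simp only [mul_assoc]
      _ = -(g * J0 l * (D0 * sadj g)) := by
          rw [D0_J0]
          simp only [Matrix.mul_neg, Matrix.neg_mul, mul_assoc]
      _ = -(g * J0 l * sadj g * x) := by rw [← hsx]; simp only [mul_assoc]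

end Cfsg.Agent.Lib.Helper52.SpFINV4P
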