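import Mathlib
import Cfsg.Agent.Lib.Helper37.SpTStmt

/-!
# S5980: shared lemmas for the pieces CPOS and CNEG (Kronecker coordinates, `a = 2`)
-/

set_option autoImplicit false

namespace Cfsg.Agent.Lib.Helper52.SpTCommon

open Matrix
open scoped Kronecker

universe u

variable {F : Type u} [Field F]

/-- entries of a skew-symmetric invertible `2 × 2` matrix -/
theorem skew2 (h2 : (2 : F) ≠ 0) (G₁ : Matrix (Fin 2) (Fin 2) F) (hG : G₁ᵀ = -G₁)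
    (hdet : G₁.det ≠ 0) :
    G₁ 0 0 = 0 ∧ G₁ 1 1 = 0 ∧ G₁ 1 0 = -G₁ 0 1 ∧ G₁ 0 1 ≠ 0 := by
  have e : ∀ i j, G₁ j i = -G₁ i j := fun i j => by
    have := congrFun (congrFun hG i) j
    simpa using this
  have hz : ∀ t : F, t = -t → t = 0 := by
    intro t ht
    have h3 : (2 : F) * t = 0 := by linear_combination ht
    rcases mul_eq_zero.mp h3 with h | h
    · exact absurd h h2
    · exact h
  have h00 : G₁ 0 0 = 0 := hz _ (e 0 0)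
  have h11 : G₁ 1 1 = 0 := hz _ (e 1 1)
  refine ⟨h00, h11, e 0 1, ?_⟩
  intro h01
  apply hdet
  rw [Matrix.det_fin_two, h00, h11, h01]
  ring

/-- entries of `Hᵀ M H` are the values of the form on the columns of `H` -/
theorem gram_apply {n : Type} [Fintype n] [DecidableEq n] (M H : Matrix n n F) (q q' : n) :
    (Hᵀ * M * H) q q' = Matrix.toBilin' M (fun i => H i q) (fun i => H i q') := by
  rw [Matrix.toBilin'_apply', Matrix.mul_assoc, Matrix.mul_apply]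
  simp only [dotProduct, Matrix.transpose_apply, Matrix.mulVec, Matrix.mul_apply]

/-- a skew-symmetric matrix gives an alternating form in odd characteristic -/
theorem alt_of_skew (h2 : (2 : F) ≠ 0) {n : Type} [Fintype n] [DecidableEq n] (M : Matrix n n F)
    (hM : Mᵀ = -M) : (Matrix.toBilin' M).IsAlt := by
  intro u
  rw [Matrix.toBilin'_apply']
  have h1 : u ⬝ᵥ M *ᵥ u = -(u ⬝ᵥ M *ᵥ u) := by
    calc u ⬝ᵥ M *ᵥ u = (u ᵥ* M) ⬝ᵥ u := Matrix.dotProduct_mulVec u M u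
      _ = (Mᵀ *ᵥ u) ⬝ᵥ u := by rw [Matrix.mulVec_transpose]
      _ = -((M *ᵥ u) ⬝ᵥ u) := by rw [hM, Matrix.neg_mulVec, neg_dotProduct]
      _ = -(u ⬝ᵥ M *ᵥ u) := by rw [dotProduct_comm]
  have h3 : (2 : F) * (u ⬝ᵥ M *ᵥ u) = 0 := by linear_combination h1
  rcases mul_eq_zero.mp h3 with h | h
  · exact absurd h h2
  · exact h

/-- `Yᵀ M Y = M` means that `Y` is an isometry -/
theorem isometry_of_eq {n : Type} [Fintype n] [DecidableEq n] (M Y : Matrix n n F)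
    (hY : Yᵀ * M * Y = M) (u v : n → F) :
    Matrix.toBilin' M (Matrix.toLin' Y u) (Matrix.toLin' Y v) = Matrix.toBilin' M u v := by
  have h1 : Matrix.toBilin' (Yᵀ * M * Y) u v = Matrix.toBilin' M u v := by rw [hY]
  rw [← Matrix.toBilin'_comp] at h1
  simpa using h1

theorem kron_skew {b : ℕ} (G₁ : Matrix (Fin 2) (Fin 2) F) (G₂ : Matrix (Fin b) (Fin b) F)
    (h1 : G₁ᵀ = -G₁) (h2 : G₂ᵀ = G₂) : (G₁ ⊗ₖ G₂)ᵀ = -(G₁ ⊗ₖ G₂) := by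
  ext ⟨s, j⟩ ⟨t, k⟩
  have e1 := congrFun (congrFun h1 s) t
  have e2 := congrFun (congrFun h2 j) k
  simp only [Matrix.transpose_apply, Matrix.neg_apply] at e1 e2
  simp only [Matrix.transpose_apply, Matrix.kroneckerMap_apply, Matrix.neg_apply, e1, e2]
  ring

theorem kron_det {b : ℕ} (G₁ : Matrix (Fin 2) (Fin 2) F) (G₂ : Matrix (Fin b) (Fin b) F)
    (h1 : G₁.det ≠ 0) (h2 : G₂.det ≠ 0) : (G₁ ⊗ₖ G₂).det ≠ 0 := by
  rw [Matrix.det_kronecker]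
  exact mul_ne_zero (pow_ne_zero _ h1) (pow_ne_zero _ h2)

/-- the final change of basis from `G₁ ⊗ diagonal c` back to `G₁ ⊗ G₂` -/
theorem finish {b : ℕ} (G₁ : Matrix (Fin 2) (Fin 2) F) (G₂ C : Matrix (Fin b) (Fin b) F)
    (c : Fin b → F) (hG₁ : G₁.det ≠ 0) (hG₂ : G₂.det ≠ 0) (hC : C.det ≠ 0)
    (hCG : Cᵀ * G₂ * C = Matrix.diagonal c)
    (h' : Matrix (Fin 2 × Fin b) (Fin 2 × Fin b) F)
    (hh' : h'ᵀ * (G₁ ⊗ₖ G₂) * h' = G₁ ⊗ₖ Matrix.diagonal c) :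
    (h' * ((1 : Matrix (Fin 2) (Fin 2) F) ⊗ₖ C⁻¹)).det ≠ 0 ∧
      (h' * ((1 : Matrix (Fin 2) (Fin 2) F) ⊗ₖ C⁻¹))ᵀ * (G₁ ⊗ₖ G₂) *
        (h' * ((1 : Matrix (Fin 2) (Fin 2) F) ⊗ₖ C⁻¹)) = G₁ ⊗ₖ G₂ := by
  have hCu : IsUnit C.det := isUnit_iff_ne_zero.mpr hC
  have hCi : C * C⁻¹ = 1 := Matrix.mul_nonsing_inv C hCu
  have key : (h' * ((1 : Matrix (Fin 2) (Fin 2) F) ⊗ₖ C⁻¹))ᵀ * (G₁ ⊗ₖ G₂) *
      (h' * ((1 : Matrix (Fin 2) (Fin 2) F) ⊗ₖ C⁻¹)) = G₁ ⊗ₖ G₂ := by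
    have e1 : (h' * ((1 : Matrix (Fin 2) (Fin 2) F) ⊗ₖ C⁻¹))ᵀ * (G₁ ⊗ₖ G₂) *
        (h' * ((1 : Matrix (Fin 2) (Fin 2) F) ⊗ₖ C⁻¹)) =
        ((1 : Matrix (Fin 2) (Fin 2) F) ⊗ₖ C⁻¹)ᵀ * (h'ᵀ * (G₁ ⊗ₖ G₂) * h') *
          ((1 : Matrix (Fin 2) (Fin 2) F) ⊗ₖ C⁻¹) := by
      rw [Matrix.transpose_mul]
      simp only [Matrix.mul_assoc]
    have e2 : ((1 : Matrix (Fin 2) (Fin 2) F) ⊗ₖ C⁻¹)ᵀ =
        (1 : Matrix (Fin 2) (Fin 2) F) ⊗ₖ (C⁻¹)ᵀ := by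
      have := Matrix.kroneckerMap_transpose (fun x y : F => x * y) (1 : Matrix (Fin 2) (Fin 2) F)
        C⁻¹
      rw [Matrix.transpose_one] at this
      exact this.symm
    have e3 : (C⁻¹)ᵀ * Matrix.diagonal c * C⁻¹ = G₂ := by
      rw [← hCG]
      calc (C⁻¹)ᵀ * (Cᵀ * G₂ * C) * C⁻¹ = ((C⁻¹)ᵀ * Cᵀ) * G₂ * (C * C⁻¹) := by
            simp only [Matrix.mul_assoc]
        _ = G₂ := by
            rw [← Matrix.transpose_mul, hCi, Matrix.transpose_one, Matrix.one_mul, Matrix.mul_one]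
    rw [e1, hh', e2, ← Matrix.mul_kronecker_mul, ← Matrix.mul_kronecker_mul, Matrix.one_mul,
      Matrix.mul_one, e3]
  refine ⟨?_, key⟩
  intro hdet
  have h3 := congrArg Matrix.det key
  rw [Matrix.det_mul, Matrix.det_mul, hdet, mul_zero] at h3
  exact kron_det G₁ G₂ hG₁ hG₂ h3.symm

end Cfsg.Agent.Lib.Helper52.SpTCommon
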