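import Mathlib
import Cfsg.Agent.Lib.Helper37.SpTStmt
import Cfsg.Agent.Lib.Helper52.SpTCommon

/-!
# S5980 piece CPOS: `a = 2`, a symplectic involution is conjugate to `1 ⊗ₖ B`
-/

set_option autoImplicit false

namespace Cfsg.Agent.Lib.Helper52.SpTCPOS

open Matrix
open scoped Kronecker
open Cfsg.Agent.Lib.Helper37.SpTStmt Cfsg.Agent.Lib.Helper52.SpTCommon

universe u

theorem main : PosB.{u} → DiagG.{u} → CPos.{u} := by
  intro hPos hDiag F _ h2 b G₁ G₂ hG₁ hG₁d hG₂ hG₂d Y hY hYY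
  classical
  obtain ⟨h00, h11, h10, h01⟩ := skew2 h2 G₁ hG₁ hG₁d
  obtain ⟨C, c, hC, hc, hCG⟩ := hDiag F h2 b G₂ hG₂ hG₂d
  have hMd := kron_det G₁ G₂ hG₁d hG₂d
  have halt := alt_of_skew h2 (G₁ ⊗ₖ G₂) (kron_skew G₁ G₂ hG₁ hG₂)
  have hnd : (Matrix.toBilin' (G₁ ⊗ₖ G₂)).Nondegenerate :=
    LinearMap.BilinForm.nondegenerate_toBilin'_iff_det_ne_zero.mpr hMd
  have hfin : Module.finrank F (Fin 2 × Fin b → F) = 2 * b := by simp
  obtain ⟨ε, u, v, hε, huv, huu, hvv, hxu, hxv⟩ := hPos F h2 (Fin 2 × Fin b → F)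
    (Matrix.toBilin' (G₁ ⊗ₖ G₂)) halt hnd (Matrix.toLin' Y) (isometry_of_eq _ Y hY)
    (fun w => by rw [← Matrix.toLin'_mul_apply, hYY, Matrix.toLin'_one]; rfl) b hfin
    (fun j => G₁ 0 1 * c j) (fun j => mul_ne_zero h01 (hc j))
  -- the columns
  obtain ⟨w, hw0, hw1⟩ : ∃ w : Fin 2 × Fin b → (Fin 2 × Fin b → F),
      (∀ j, w (0, j) = u j) ∧ (∀ j, w (1, j) = v j) :=
    ⟨fun q => if q.1 = 0 then u q.2 else v q.2, fun j => rfl, fun j => rfl⟩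
  obtain ⟨h', hcol⟩ : ∃ h' : Matrix (Fin 2 × Fin b) (Fin 2 × Fin b) F,
      ∀ q, (fun i => h' i q) = w q := ⟨Matrix.of (fun i q => w q i), fun q => rfl⟩
  have hh' : h'ᵀ * (G₁ ⊗ₖ G₂) * h' = G₁ ⊗ₖ Matrix.diagonal c := by
    ext ⟨s, j⟩ ⟨t, k⟩
    rw [Cfsg.Agent.Lib.Helper52.SpTCommon.gram_apply, hcol, hcol, Matrix.kroneckerMap_apply, Matrix.diagonal_apply]
    fin_cases s <;> fin_cases t
    · change Matrix.toBilin' (G₁ ⊗ₖ G₂) (w (0, j)) (w (0, k)) = G₁ 0 0 * _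
      rw [hw0, hw0, huu, h00, zero_mul]
    · change Matrix.toBilin' (G₁ ⊗ₖ G₂) (w (0, j)) (w (1, k)) = G₁ 0 1 * _
      rw [hw0, hw1, huv]
      by_cases hjk : j = k
      · simp [hjk]
      · simp [hjk]
    · change Matrix.toBilin' (G₁ ⊗ₖ G₂) (w (1, j)) (w (0, k)) = G₁ 1 0 * _
      rw [hw1, hw0, ← halt.neg_eq (u k) (v j), huv, h10]
      by_cases hjk : j = k
      · subst hjk
        simp
      · simp [hjk, Ne.symm hjk]
    · change Matrix.toBilin' (G₁ ⊗ₖ G₂) (w (1, j)) (w (1, k)) = G₁ 1 1 * _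
      rw [hw1, hw1, hvv, h11, zero_mul]
  have hYh : Y * h' = h' * ((1 : Matrix (Fin 2) (Fin 2) F) ⊗ₖ Matrix.diagonal ε) := by
    rw [← Matrix.diagonal_one, Matrix.diagonal_kronecker_diagonal]
    ext i ⟨s, j⟩
    rw [Matrix.mul_diagonal]
    have e : (Y * h') i (s, j) = (Matrix.toLin' Y (w (s, j))) i := by
      rw [Matrix.toLin'_apply, Matrix.mul_apply, ← hcol]
      rfl
    have e2 : h' i (s, j) = w (s, j) i := congrFun (hcol (s, j)) i
    rw [e, e2]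
    fin_cases s
    · change (Matrix.toLin' Y (w (0, j))) i = w (0, j) i * (1 * ε j)
      rw [hw0, hxu, one_mul, Pi.smul_apply, smul_eq_mul, mul_comm]
    · change (Matrix.toLin' Y (w (1, j))) i = w (1, j) i * (1 * ε j)
      rw [hw1, hxv, one_mul, Pi.smul_apply, smul_eq_mul, mul_comm]
  have hCu : IsUnit C.det := isUnit_iff_ne_zero.mpr hC
  obtain ⟨hdet, hkey⟩ := finish G₁ G₂ C c hG₁d hG₂d hC hCG h' hh'
  refine ⟨h' * ((1 : Matrix (Fin 2) (Fin 2) F) ⊗ₖ C⁻¹), C * Matrix.diagonal ε * C⁻¹, hdet, hkey,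
    ?_, ?_⟩
  · rw [Matrix.det_mul, Matrix.det_mul, Matrix.det_diagonal]
    refine mul_ne_zero (mul_ne_zero hC (Finset.prod_ne_zero_iff.mpr fun j _ => ?_)) ?_
    · rcases hε j with h | h
      · rw [h]
        exact one_ne_zero
      · rw [h]
        exact neg_ne_zero.mpr one_ne_zero
    · intro h0
      have h3 := congrArg Matrix.det (Matrix.mul_nonsing_inv C hCu)
      rw [Matrix.det_mul, h0, mul_zero, Matrix.det_one] at h3
      exact zero_ne_one h3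
  · rw [← Matrix.mul_assoc, hYh, Matrix.mul_assoc, Matrix.mul_assoc, ← Matrix.mul_kronecker_mul,
      ← Matrix.mul_kronecker_mul, Matrix.one_mul]
    have e : C⁻¹ * (C * Matrix.diagonal ε * C⁻¹) = Matrix.diagonal ε * C⁻¹ := by
      rw [← Matrix.mul_assoc, ← Matrix.mul_assoc, Matrix.nonsing_inv_mul C hCu, Matrix.one_mul]
    rw [e]

end Cfsg.Agent.Lib.Helper52.SpTCPOS
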