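import Mathlib
import Cfsg.Agent.Lib.Helper37.SpTStmt
import Cfsg.Agent.Lib.Helper13.SympMat

/-!
# S5980 piece SPNEG2: a symplectic involution with `rank (x - 1) = 2`
-/

set_option autoImplicit false

namespace Cfsg.Agent.Lib.Helper52.SpTSPNEG2

open Matrix

universe u

section

variable {F : Type u} [Field F]

/-- a matrix of the symplectic group, with its inverse, gives an element of `spGL` -/
theorem mem_spGL_of_symp {d : ℕ} (x : GL (Fin d ⊕ Fin d) F)
    (h : (x : Matrix (Fin d ⊕ Fin d) (Fin d ⊕ Fin d) F) ∈ Matrix.symplecticGroup (Fin d) F) :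
    x ∈ Cfsg.spGL d F := by
  intro u v
  have h1 := (Cfsg.Agent.Lib.Helper13.SympMat.mem_symp_iff d _).mp h u v
  rw [Cfsg.Agent.Lib.Helper13.SympMat.form_apply, Cfsg.Agent.Lib.Helper13.SympMat.form_apply] at h1
  exact h1

end

theorem main : Cfsg.Agent.Lib.Helper37.SpTStmt.SpNeg2.{u} := by
  intro F _ h2 d hd
  classical
  obtain ⟨t, ht⟩ : ∃ t : Fin d → F, t = fun i : Fin d => if (i : ℕ) = 0 then (-1 : F) else 1 := ⟨_, rfl⟩
  have htt : ∀ i, t i * t i = 1 := by
    intro i
    rw [ht]
    by_cases hi : (i : ℕ) = 0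
    · simp [hi]
    · simp [hi]
  have hdd : Matrix.diagonal t * Matrix.diagonal t = (1 : Matrix (Fin d) (Fin d) F) := by
    rw [Matrix.diagonal_mul_diagonal, ← Matrix.diagonal_one]
    congr 1
    funext i
    exact htt i
  have hD : Matrix.diagonal (Sum.elim t t) =
      Matrix.fromBlocks (Matrix.diagonal t) 0 0 (Matrix.diagonal t) :=
    (Matrix.fromBlocks_diagonal t t).symm
  have hDD : Matrix.diagonal (Sum.elim t t) * Matrix.diagonal (Sum.elim t t) =
      (1 : Matrix (Fin d ⊕ Fin d) (Fin d ⊕ Fin d) F) := by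
    rw [Matrix.diagonal_mul_diagonal, ← Matrix.diagonal_one]
    congr 1
    funext k
    rcases k with i | i
    · exact htt i
    · exact htt i
  refine ⟨⟨Matrix.diagonal (Sum.elim t t), Matrix.diagonal (Sum.elim t t), hDD, hDD⟩, ?_, ?_, ?_⟩
  · apply mem_spGL_of_symp
    change Matrix.diagonal (Sum.elim t t) ∈ Matrix.symplecticGroup (Fin d) F
    rw [SymplecticGroup.mem_iff, hD, Matrix.J, Matrix.fromBlocks_transpose,
      Matrix.fromBlocks_multiply, Matrix.fromBlocks_multiply]
    simp only [Matrix.transpose_zero, Matrix.diagonal_transpose, Matrix.mul_zero, Matrix.zero_mul,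
      Matrix.mul_one, Matrix.mul_neg, Matrix.neg_mul, add_zero, zero_add, hdd, neg_zero]
  · apply Units.ext
    rw [Units.val_pow_eq_pow_val, sq]
    exact hDD
  · change (Matrix.diagonal (Sum.elim t t) - 1 : Matrix (Fin d ⊕ Fin d) (Fin d ⊕ Fin d) F).rank = 2
    have e : (Matrix.diagonal (Sum.elim t t) - 1 : Matrix (Fin d ⊕ Fin d) (Fin d ⊕ Fin d) F) =
        Matrix.diagonal (fun k => Sum.elim t t k - 1) := by
      rw [← Matrix.diagonal_one, ← Matrix.diagonal_sub]
    rw [e, Matrix.rank_diagonal, Fintype.card_subtype]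
    have hf : (Finset.univ.filter (fun k : Fin d ⊕ Fin d => Sum.elim t t k - 1 ≠ 0)) =
        {Sum.inl ⟨0, hd⟩, Sum.inr ⟨0, hd⟩} := by
      ext k
      simp only [Finset.mem_filter, Finset.mem_univ, true_and, Finset.mem_insert,
        Finset.mem_singleton]
      rcases k with i | i
      · simp only [Sum.elim_inl, Sum.inl.injEq, reduceCtorEq, or_false]
        rw [ht]
        by_cases hi : (i : ℕ) = 0
        · have : i = ⟨0, hd⟩ := Fin.ext hi
          simp only [if_true, this, iff_true]
          intro h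
          apply h2
          have : (2 : F) = -(-1 - 1) := by ring
          rw [this, h, neg_zero]
        · have : i ≠ ⟨0, hd⟩ := fun h => hi (congrArg Fin.val h)
          simp [hi, this]
      · simp only [Sum.elim_inr, Sum.inr.injEq, reduceCtorEq, false_or]
        rw [ht]
        by_cases hi : (i : ℕ) = 0
        · have : i = ⟨0, hd⟩ := Fin.ext hi
          simp only [if_true, this, iff_true]
          intro h
          apply h2
          have : (2 : F) = -(-1 - 1) := by ring
          rw [this, h, neg_zero]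
        · have : i ≠ ⟨0, hd⟩ := fun h => hi (congrArg Fin.val h)
          simp [hi, this]
    rw [hf, Finset.card_pair]
    simp

end Cfsg.Agent.Lib.Helper52.SpTSPNEG2
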