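import Mathlib
import Cfsg.Agent.Lib.Helper37.SpTStmt
import Cfsg.Agent.Lib.Helper13.SympMat
import Cfsg.Agent.Lib.Helper52.SpTSPNEG2

/-!
# S5980 piece SPTV: a symplectic transvection, of order `p`, with `rank (x - 1) = 1`
-/

set_option autoImplicit false

namespace Cfsg.Agent.Lib.Helper52.SpTSPTV

open Matrix

universe u

section

variable {F : Type u} [Field F]

theorem rank_pos_of_ne_zero {m n : Type} [Fintype m] [Fintype n] [DecidableEq n]
    (N : Matrix m n F) (hN : N ≠ 0) : 0 < N.rank := by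
  by_contra h
  have h0 : N.rank = 0 := by omega
  rw [Matrix.rank, Submodule.finrank_eq_zero, LinearMap.range_eq_bot] at h0
  apply hN
  ext i j
  have := congrArg (fun f => f (Pi.single j 1) i) h0
  simpa using this

theorem one_add_pow_of_sq_zero {n : Type} [Fintype n] [DecidableEq n] (N : Matrix n n F)
    (hN : N * N = 0) (k : ℕ) : (1 + N) ^ k = 1 + k • N := by
  induction k with
  | zero => simp
  | succ k ih =>
    rw [pow_succ, ih]
    have h1 : (1 + k • N) * (1 + N) = 1 + k • N + N + k • (N * N) := by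
      rw [mul_add, mul_one, add_mul, one_mul, smul_mul_assoc]
      abel
    rw [h1, hN, smul_zero, add_zero, succ_nsmul]
    abel

end

theorem main : Cfsg.Agent.Lib.Helper37.SpTStmt.SpTv.{u} := by
  intro F _ p _ _ d hd
  classical
  obtain ⟨v, hv⟩ : ∃ v : Fin d ⊕ Fin d → F, v = Pi.single (Sum.inl ⟨0, hd⟩) 1 := ⟨_, rfl⟩
  obtain ⟨N, hN⟩ : ∃ N : Matrix (Fin d ⊕ Fin d) (Fin d ⊕ Fin d) F,
      N = Matrix.vecMulVec v (Matrix.J (Fin d) F *ᵥ v) := ⟨_, rfl⟩
  have hT : Cfsg.sympTransvection d v (1 : F) = 1 + N := by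
    rw [Cfsg.sympTransvection, one_smul, hN]
  have halt : (Matrix.J (Fin d) F *ᵥ v) ⬝ᵥ v = 0 := by
    have h1 := Cfsg.Agent.Lib.Helper13.SympMat.form_alt d (F := F) v
    rw [Cfsg.Agent.Lib.Helper13.SympMat.form_apply, Cfsg.sympForm, dotProduct_comm] at h1
    exact h1
  have hNN : N * N = 0 := by
    rw [hN, Matrix.vecMulVec_mul_vecMulVec, halt, zero_smul]
    ext i j
    simp [Matrix.vecMulVec_apply]
  have h1 : (1 + N) * (1 - N) = 1 := by
    rw [mul_sub, mul_one, add_mul, one_mul, hNN, add_zero]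
    abel
  have h2 : (1 - N) * (1 + N) = 1 := by
    rw [mul_add, mul_one, sub_mul, one_mul, hNN, sub_zero]
    abel
  have hN0 : N ≠ 0 := by
    intro h0
    have h3 := congrFun (congrFun h0 (Sum.inl ⟨0, hd⟩)) (Sum.inr ⟨0, hd⟩)
    rw [hN, Matrix.vecMulVec_apply, hv, Matrix.J, Matrix.fromBlocks_mulVec] at h3
    simp at h3
  refine ⟨⟨1 + N, 1 - N, h1, h2⟩, ?_, ?_, ?_⟩
  · apply Cfsg.Agent.Lib.Helper52.SpTSPNEG2.mem_spGL_of_symp
    change 1 + N ∈ Matrix.symplecticGroup (Fin d) F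
    rw [← hT]
    exact Cfsg.Agent.Lib.Helper13.SympMat.transvection_mem d v 1
  · apply Units.ext
    rw [Units.val_pow_eq_pow_val]
    change (1 + N) ^ p = 1
    rw [one_add_pow_of_sq_zero N hNN, ← Nat.cast_smul_eq_nsmul F, CharP.cast_eq_zero, zero_smul,
      add_zero]
  · change (1 + N - 1 : Matrix (Fin d ⊕ Fin d) (Fin d ⊕ Fin d) F).rank = 1
    rw [add_sub_cancel_left]
    have hle : N.rank ≤ 1 := by
      rw [hN]
      exact Matrix.rank_vecMulVec_le _ _
    have hpos := rank_pos_of_ne_zero N hN0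
    omega

end Cfsg.Agent.Lib.Helper52.SpTSPTV
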