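import Mathlib
import Cfsg.Agent.Lib.Helper41.TMStmt

/-! S5987 piece RIMG (helper52, port of Helper80.TPRIMG): `R = (x - 1) W`. -/

set_option autoImplicit false

universe u

open scoped Matrix

namespace Cfsg.Agent.Lib.Helper52.TMRIMG

open Cfsg.Agent.Lib.Helper41.TMStmt
open Cfsg.Agent.Lib.Helper37.HypStmt (cc IPos)
open Cfsg.Agent.Lib.Helper44.TSStmt (Fac NumTypes)
open Cfsg.Agent.Lib.Helper45.OMiStmt (M Aniso FxM NDegM StabM)
open Cfsg.Agent.Lib.Helper41.TMTwoStmt (TSubM PlusM FixTSM)

theorem main : RImg.{u} := by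
  intro F _ _ a₀ b₀ _ p _ _ d r _ hrp x hx W hW
  classical
  set X : Matrix (M d) (M d) F := (x : Matrix (M d) (M d) F) with hXdef
  have hXr : X ^ r = 1 := by
    have h := congrArg (fun y : Matrix.GeneralLinearGroup (M d) F => (y : Matrix (M d) (M d) F)) hx
    simpa [Units.val_pow_eq_pow_val] using h
  have hW' : ∀ w ∈ W, X *ᵥ w ∈ W := by
    intro w hw
    have h1 : Matrix.toLin' X w ∈ W.map (Matrix.toLin' X) := Submodule.mem_map_of_mem hw
    have h2 := hW h1
    simpa [Matrix.toLin'_apply] using h2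
  let T : (M d → F) →ₗ[F] (M d → F) := Matrix.toLin' X - LinearMap.id
  have hT : ∀ w, T w = X *ᵥ w - w := by
    intro w
    simp [T, Matrix.toLin'_apply]
  have hFx : FxM X = LinearMap.ker T := rfl
  refine ⟨W.map T, ?_, ?_, ?_, ?_, ?_⟩
  · rintro v ⟨w, hw, rfl⟩
    rw [hT]
    exact W.sub_mem (hW' w hw) hw
  · rintro v ⟨u, ⟨w, hw, rfl⟩, rfl⟩
    refine ⟨X *ᵥ w, hW' w hw, ?_⟩
    rw [hT, hT, Matrix.toLin'_apply, Matrix.mulVec_sub]
  · rw [eq_bot_iff]
    rintro v ⟨⟨w, hw, rfl⟩, hv⟩
    have hv' : X *ᵥ (T w) = T w := by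
      have h0 : T (T w) = 0 := by
        have h1 : T w ∈ LinearMap.ker T := hv
        exact LinearMap.mem_ker.mp h1
      rw [hT (T w)] at h0
      exact sub_eq_zero.mp h0
    clear hv
    rename' hv' => hv
    rw [Submodule.mem_bot]
    have hxw : X *ᵥ w = w + T w := by
      rw [hT]; abel
    have hv' : ∀ n : ℕ, (X ^ n) *ᵥ (T w) = T w := by
      intro n
      induction n with
      | zero => simp
      | succ m ihm => rw [pow_succ, ← Matrix.mulVec_mulVec, hv, ihm]
    have key : ∀ k : ℕ, (X ^ k) *ᵥ w = w + (k : F) • T w := by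
      intro k
      induction k with
      | zero => simp
      | succ n ih =>
        rw [pow_succ, ← Matrix.mulVec_mulVec, hxw, Matrix.mulVec_add, ih, hv' n]
        push_cast
        module
    have h1 := key r
    rw [hXr, Matrix.one_mulVec] at h1
    have hr0 : (r : F) ≠ 0 := by
      intro h0
      have hdvd := (CharP.cast_eq_zero_iff F p r).mp h0
      have hr := (Fact.out : r.Prime)
      have hp := (Fact.out : p.Prime)
      exact hrp ((Nat.prime_dvd_prime_iff_eq hp hr).mp hdvd).symm
    have h2 : (r : F) • T w = 0 := by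
      have h3 : w + (r : F) • T w = w + 0 := by rw [add_zero]; exact h1.symm
      exact add_left_cancel h3
    exact (smul_eq_zero.mp h2).resolve_left hr0
  · have h1 := LinearMap.finrank_range_add_finrank_ker (T ∘ₗ W.subtype)
    have h2 : LinearMap.range (T ∘ₗ W.subtype) = W.map T := by
      rw [LinearMap.range_comp, Submodule.range_subtype]
    have h3 : LinearMap.ker (T ∘ₗ W.subtype) = (LinearMap.ker T).comap W.subtype := by
      rw [LinearMap.ker_comp]
    have h4 : Module.finrank F ↥((LinearMap.ker T).comap W.subtype) =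
        Module.finrank F ↥(W ⊓ LinearMap.ker T) := by
      rw [← Submodule.finrank_map_subtype_eq W, Submodule.map_comap_subtype]
    rw [h2, h3, h4] at h1
    rw [hFx]
    exact h1
  · rintro v ⟨w, hw, rfl⟩
    exact ⟨w, hw, hT w⟩

end Cfsg.Agent.Lib.Helper52.TMRIMG
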