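import Mathlib
import Cfsg.Agent.Lib.Helper41.TMStmt
import Cfsg.Agent.Lib.Helper44.NegPairs
import Cfsg.Agent.Lib.Helper44.WittND2
import Cfsg.Agent.Lib.Helper44.OEmb
import Cfsg.Agent.Lib.Helper8.HypHYPSUB

/-!
# S5987 / TSIN (call by helper41; helper52, port of `Helper21.TPTSIN` to the minus form, all `q`):
a nondegenerate subspace of dimension `> 2 j` contains a totally singular `j`-space
-/

set_option autoImplicit false

namespace Cfsg.Agent.Lib.Helper52.TMTSIN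

open Module QuadraticMap
open Cfsg.Agent.Lib.Helper44.QSpace Cfsg.Agent.Lib.Helper44.NegPairs Cfsg.Agent.Lib.Helper44.OEmb
open Cfsg.Agent.Lib.Helper44.WittND Cfsg.Agent.Lib.Helper44.WittND2
open Cfsg.Agent.Lib.Helper41.TMStmt
open Cfsg.Agent.Lib.Helper37.HypStmt (cc IPos)
open Cfsg.Agent.Lib.Helper44.TSStmt (Fac NumTypes)
open Cfsg.Agent.Lib.Helper45.OMiStmt (M Aniso FxM NDegM StabM)
open Cfsg.Agent.Lib.Helper41.TMTwoStmt (TSubM PlusM FixTSM)
open Cfsg.Agent.Lib.Helper8.HypHYPSUB (isom_inj inlMap inlMap_inj plusQ_inlMap)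

universe u

theorem ndsub_of_ndeg' {F : Type u} [Field F] {d : ℕ} {a₀ b₀ : F} {W : Submodule F (M d → F)}
    (h : NDegM d F a₀ b₀ W) : NDsub (minusQ (d - 1) F a₀ b₀) W := by
  intro x hx hall
  by_contra hx0
  obtain ⟨-, ⟨y, hy, hxy⟩⟩ := h x hx hx0
  exact hxy (hall y hy)

theorem main : TsIn.{u} := by
  intro F _ _ a₀ b₀ _ d Y j hY hj
  classical
  have hY' : NDsub (minusQ (d - 1) F a₀ b₀) Y := ndsub_of_ndeg' hY
  have hfH : finrank F (Fin j ⊕ Fin j → F) = 2 * j := by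
    rw [Module.finrank_fintype_fun_eq_card, Fintype.card_sum, Fintype.card_fin]
    ring
  obtain ⟨φ, hφ⟩ := exists_embedding j (Fin j ⊕ Fin j → F) (plusQ j F) Y (res (minusQ (d - 1) F a₀ b₀) Y) hfH
    (by rw [hfH]; exact hj) (sep_plusQ j) (sep_res_of_ndsub hY')
  have hinj := isom_inj (sep_plusQ j) φ hφ
  refine ⟨LinearMap.range (Y.subtype ∘ₗ φ ∘ₗ inlMap j), ?_, ?_, ?_⟩
  · rintro _ ⟨a, rfl⟩
    exact (φ (inlMap j a)).2
  · rintro _ ⟨a, rfl⟩
    have h5 := hφ (inlMap j a)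
    rw [res_apply, plusQ_inlMap] at h5
    exact h5
  · have hinj2 : Function.Injective (Y.subtype ∘ₗ φ ∘ₗ inlMap j) := by
      rw [LinearMap.coe_comp, LinearMap.coe_comp]
      exact (Y.subtype_injective.comp hinj).comp (inlMap_inj j)
    rw [LinearMap.finrank_range_of_inj hinj2, Module.finrank_fintype_fun_eq_card,
      Fintype.card_fin]

end Cfsg.Agent.Lib.Helper52.TMTSIN
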