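import Mathlib
import Cfsg.Prelude.Def_SporadicB
import Cfsg.Agent.Lib.Helper21.W3Class
import Cfsg.Agent.Lib.Helper21.Layer
import Cfsg.Agent.Lib.Helper78.Fitting
import Cfsg.Agent.Lib.Helper52.TT3Basic

set_option autoImplicit false

/-!
# The `S₃ × S₃` case
-/

namespace Cfsg.Agent.Lib.Helper52.TT3A

open Cfsg Subgroup Equiv
open Cfsg.Agent.Lib.Helper21.W3Apps Cfsg.Agent.Lib.Helper21.W3Class
open Cfsg.Agent.Lib.Helper52.TT3Basic

universe u
variable {G : Type u} [Group G] {D : Set G}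

/-- a normal 3-subgroup containing all products of members with the same commuting partners -/
theorem exists_P [Finite G] (hD : IsThreeTranspositionSet D)
    (hconj : ∀ g : G, ∀ d ∈ D, g * d * g⁻¹ ∈ D) :
    ∃ P : Subgroup G, P.Normal ∧ IsPGroup 3 P ∧
      ∀ u ∈ D, ∀ v ∈ D, Pt D u = Pt D v → u * v ∈ P := by
  classical
  have hp3 : Fact (Nat.Prime 3) := ⟨by norm_num⟩
  obtain ⟨N, hNdef⟩ : ∃ N : Subgroup G, N = Subgroup.closure D := ⟨_, rfl⟩
  have hN : N.Normal := by rw [hNdef]; exact closure_normal_of_conj hconj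
  obtain ⟨D₁, hD₁def⟩ : ∃ D₁ : Set N, D₁ = (Subtype.val : N → G) ⁻¹' D := ⟨_, rfl⟩
  have hmem₁ : ∀ y : N, y ∈ D₁ ↔ (y : G) ∈ D := by
    intro y; rw [hD₁def]; rfl
  have hD₁ : IsThreeTranspositionGroup D₁ := by
    refine ⟨⟨?_, ?_⟩, ?_, ?_⟩
    · intro d hd
      rw [← Subgroup.orderOf_coe]
      exact hD.1 _ ((hmem₁ d).mp hd)
    · intro d hd e he
      rcases hD.2 _ ((hmem₁ d).mp hd) _ ((hmem₁ e).mp he) with h | h
      · left
        apply Subtype.ext
        rw [Subgroup.coe_pow, Subgroup.coe_mul]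
        exact h
      · right
        apply Subtype.ext
        rw [Subgroup.coe_pow, Subgroup.coe_mul]
        exact h
    · intro g d hd
      rw [hmem₁]
      rw [Subgroup.coe_mul, Subgroup.coe_mul, Subgroup.coe_inv]
      exact hconj _ _ ((hmem₁ d).mp hd)
    · rw [hD₁def]
      subst hNdef
      exact Subgroup.closure_closure_coe_preimage
  have hchar : (pCore 3 ↥N).Characteristic :=
    Cfsg.Agent.Lib.Helper21.Layer.pCore_characteristic 3 ↥N
  refine ⟨(pCore 3 ↥N).map N.subtype, ?_, ?_, ?_⟩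
  · exact ConjAct.normal_of_characteristic_of_normal
  · exact (Cfsg.Agent.Lib.Helper78.Fitting.pCore_isPGroup 3).map _
  · intro u hu v hv h
    have hu' : u ∈ N := by rw [hNdef]; exact Subgroup.subset_closure hu
    have hv' : v ∈ N := by rw [hNdef]; exact Subgroup.subset_closure hv
    have key : ∀ (y : N) (w : G) (hw : w ∈ N), y ∈ Pt D₁ ⟨w, hw⟩ ↔ (y : G) ∈ Pt D w := by
      intro y w hw
      constructor
      · rintro ⟨h1, h2, h3⟩
        refine ⟨(hmem₁ y).mp h1, fun h => h2 (Subtype.ext h), ?_⟩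
        exact congrArg Subtype.val h3
      · rintro ⟨h1, h2, h3⟩
        refine ⟨(hmem₁ y).mpr h1, fun h => h2 (congrArg Subtype.val h), ?_⟩
        exact Subtype.ext h3
    have hPt : Pt D₁ ⟨u, hu'⟩ = Pt D₁ ⟨v, hv'⟩ := by
      ext y
      rw [key y u hu', key y v hv', h]
    have hmem : (⟨u, hu'⟩ * ⟨v, hv'⟩ : N) ∈ Kd D₁ ⟨u, hu'⟩ :=
      Subgroup.subset_closure
        ⟨⟨u, hu'⟩, (hmem₁ _).mpr hu, rfl, ⟨v, hv'⟩, (hmem₁ _).mpr hv, hPt, rfl⟩
    have h2 := Kd_le_pCore hD₁ ⟨u, hu'⟩ hmem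
    exact ⟨⟨u, hu'⟩ * ⟨v, hv'⟩, h2, rfl⟩

/-- the only element of `P` centralizing both `d` and `a` is the identity -/
theorem cent_trivial [Finite G] (hD : IsThreeTranspositionSet D) {P : Subgroup G}
    (hPn : P.Normal) (hP : IsPGroup 3 P) {d a b : G} (ha : a ∈ Pt D d) (hb : b ∈ Pt D d)
    (hab : ¬ Commute a b) (hρ : a * b ∈ P)
    (hO : Nat.card (pCore 3 ↥(Subgroup.centralizer ({d} : Set G))) = 3)
    {g : G} (hg : g ∈ P) (hgd : Commute g d) (hga : Commute g a) : g = 1 := by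
  have hp3 : Fact (Nat.Prime 3) := ⟨by norm_num⟩
  have ha2 := tt_sq hD ha.1
  have hb2 := tt_sq hD hb.1
  have hρd : a * b ∈ Subgroup.centralizer ({d} : Set G) := by
    rw [Subgroup.mem_centralizer_iff]
    intro h hh
    rw [Set.mem_singleton_iff] at hh
    subst hh
    have h1 : h * a = a * h := ha.2.2
    have h2 : h * b = b * h := hb.2.2
    calc h * (a * b) = (h * a) * b := by group
      _ = a * (h * b) := by rw [h1]; group
      _ = a * b * h := by rw [h2]; group
  have hgC : g ∈ Subgroup.centralizer ({d} : Set G) := by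
    rw [Subgroup.mem_centralizer_iff]
    intro h hh
    rw [Set.mem_singleton_iff] at hh
    subst hh
    exact hgd.symm
  have hQn : (P.subgroupOf (Subgroup.centralizer ({d} : Set G))).Normal := inferInstance
  have hQp : IsPGroup 3 (P.subgroupOf (Subgroup.centralizer ({d} : Set G))) := hP.comap_subtype
  have hQle := Cfsg.Agent.Lib.Helper78.Fitting.le_pCore hQn hQp
  have hρR : (⟨a * b, hρd⟩ : ↥(Subgroup.centralizer ({d} : Set G))) ∈
      pCore 3 ↥(Subgroup.centralizer ({d} : Set G)) := hQle (Subgroup.mem_subgroupOf.mpr hρ)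
  have hgR : (⟨g, hgC⟩ : ↥(Subgroup.centralizer ({d} : Set G))) ∈
      pCore 3 ↥(Subgroup.centralizer ({d} : Set G)) := hQle (Subgroup.mem_subgroupOf.mpr hg)
  have hne : (⟨⟨a * b, hρd⟩, hρR⟩ : ↥(pCore 3 ↥(Subgroup.centralizer ({d} : Set G)))) ≠ 1 := by
    intro h
    have h1 : a * b = 1 :=
      congrArg (fun z : ↥(pCore 3 ↥(Subgroup.centralizer ({d} : Set G))) =>
        ((z : ↥(Subgroup.centralizer ({d} : Set G))) : G)) h
    apply hab
    have h2 : a = b := by
      calc a = a * (b * b) := by rw [hb2, mul_one]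
        _ = (a * b) * b := by group
        _ = b := by rw [h1, one_mul]
    rw [h2]
  have hz := mem_zpowers_of_prime_card hO
    (g' := (⟨⟨g, hgC⟩, hgR⟩ : ↥(pCore 3 ↥(Subgroup.centralizer ({d} : Set G))))) hne
  obtain ⟨k, hk⟩ := Subgroup.mem_zpowers_iff.mp hz
  have hk' : (a * b) ^ k = g := by
    have h1 := congrArg (fun z : ↥(pCore 3 ↥(Subgroup.centralizer ({d} : Set G))) =>
        ((z : ↥(Subgroup.centralizer ({d} : Set G))) : G)) hk
    simpa using h1
  have hinvρ : a * (a * b) * a⁻¹ = (a * b)⁻¹ := by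
    rw [tt_inv hD ha.1, mul_inv_rev, tt_inv hD ha.1, tt_inv hD hb.1]
    calc a * (a * b) * a = (a * a) * b * a := by group
      _ = b * a := by rw [ha2, one_mul]
  have h1 : a * g * a⁻¹ = g⁻¹ := by
    rw [← hk', ← conj_zpow, hinvρ, inv_zpow]
  have h2 : a * g * a⁻¹ = g := by
    have h3 : g * a = a * g := hga
    calc a * g * a⁻¹ = (g * a) * a⁻¹ := by rw [h3]
      _ = g := by group
  have h3 : g * g = 1 := by
    have h4 : g = g⁻¹ := h2.symm.trans h1
    calc g * g = g * g⁻¹ := by rw [← h4]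
      _ = 1 := mul_inv_cancel g
  exact eq_one_of_mem_three hP hg h3

/-- `a d` acts fixed-point-freely on `P` -/
theorem fpf (hD : IsThreeTranspositionSet D) (hL : Loc D)
    (hconj : ∀ g : G, ∀ d ∈ D, g * d * g⁻¹ ∈ D) {P : Subgroup G} (hPn : P.Normal)
    (hP : IsPGroup 3 P) {d a : G} (hd : d ∈ D) (ha : a ∈ Pt D d)
    (hct : ∀ g ∈ P, Commute g d → Commute g a → g = 1) {g : G} (hg : g ∈ P)
    (hc : Commute g (a * d)) : g = 1 := by
  have ha2 := tt_sq hD ha.1
  have hd2 := tt_sq hD hd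
  have hd' : g * d * g⁻¹ ∈ D := hconj g d hd
  have ha' : g * a * g⁻¹ ∈ D := hconj g a ha.1
  have hm1 : d⁻¹ * (g * d * g⁻¹) ∈ P := by
    have e : d⁻¹ * (g * d * g⁻¹) = (d⁻¹ * g * d⁻¹⁻¹) * g⁻¹ := by group
    rw [e]; exact mul_mem (hPn.conj_mem g hg _) (inv_mem hg)
  have hm2 : (g * d * g⁻¹)⁻¹ * d ∈ P := by
    have e : (g * d * g⁻¹)⁻¹ * d = (d⁻¹ * (g * d * g⁻¹))⁻¹ := by group
    rw [e]; exact inv_mem hm1
  have hsub1 : Pt D d ⊆ Pt D (g * d * g⁻¹) := Pt_subset hD hPn hP hd hd' hm1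
  have hsub2 : Pt D (g * d * g⁻¹) ⊆ Pt D d := Pt_subset hD hPn hP hd' hd hm2
  have hcad : d * a = a * d := ha.2.2
  have ha'Pt : g * a * g⁻¹ ∈ Pt D (g * d * g⁻¹) := by
    refine ⟨ha', ?_, ?_⟩
    · intro h
      exact ha.2.1 (mul_left_cancel (mul_right_cancel h))
    · show g * d * g⁻¹ * (g * a * g⁻¹) = g * a * g⁻¹ * (g * d * g⁻¹)
      calc g * d * g⁻¹ * (g * a * g⁻¹) = g * (d * a) * g⁻¹ := by group
        _ = g * (a * d) * g⁻¹ := by rw [hcad]
        _ = _ := by group
  have ha'd : g * a * g⁻¹ ∈ Pt D d := hsub2 ha'Pt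
  have had' : (g * d * g⁻¹) * a = a * (g * d * g⁻¹) := (hsub1 ha).2.2
  have hprod : (g * a * g⁻¹) * (g * d * g⁻¹) = a * d := by
    have h1 : g * (a * d) = (a * d) * g := hc
    calc (g * a * g⁻¹) * (g * d * g⁻¹) = (g * (a * d)) * g⁻¹ := by group
      _ = (a * d) * g * g⁻¹ := by rw [h1]
      _ = a * d := by group
  have hd'2 : (g * d * g⁻¹) * (g * d * g⁻¹) = 1 := tt_sq hD hd'
  have hz : a * (g * a * g⁻¹) = d * (g * d * g⁻¹) := by
    calc a * (g * a * g⁻¹)
        = a * ((g * a * g⁻¹) * ((g * d * g⁻¹) * (g * d * g⁻¹))) := by rw [hd'2, mul_one]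
      _ = a * (((g * a * g⁻¹) * (g * d * g⁻¹)) * (g * d * g⁻¹)) := by group
      _ = a * ((a * d) * (g * d * g⁻¹)) := by rw [hprod]
      _ = (a * a) * d * (g * d * g⁻¹) := by group
      _ = d * (g * d * g⁻¹) := by rw [ha2, one_mul]
  have hcomm : Commute a (g * a * g⁻¹) := by
    show a * (g * a * g⁻¹) = (g * a * g⁻¹) * a
    have h1 : a * (d * (g * d * g⁻¹)) = (d * (g * d * g⁻¹)) * a := by
      calc a * (d * (g * d * g⁻¹)) = (a * d) * (g * d * g⁻¹) := by group
        _ = (d * a) * (g * d * g⁻¹) := by rw [hcad]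
        _ = d * (a * (g * d * g⁻¹)) := by group
        _ = d * ((g * d * g⁻¹) * a) := by rw [had']
        _ = _ := by group
    rw [← hz] at h1
    have h2 : g * a * g⁻¹ = a * (g * a * g⁻¹) * a := by
      calc g * a * g⁻¹ = (a * a) * (g * a * g⁻¹) := by rw [ha2, one_mul]
        _ = a * (a * (g * a * g⁻¹)) := by group
        _ = a * (g * a * g⁻¹) * a := h1
    calc a * (g * a * g⁻¹) = a * (a * (g * a * g⁻¹) * a) := by rw [← h2]
      _ = (a * a) * (g * a * g⁻¹) * a := by group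
      _ = (g * a * g⁻¹) * a := by rw [ha2, one_mul]
  have heq : g * a * g⁻¹ = a := by
    by_contra hne
    exact Pt_noncomm hD hL hd ha ha'd (fun h => hne h.symm) hcomm
  have heq2 : g * d * g⁻¹ = d := by
    rw [heq, ha2] at hz
    calc g * d * g⁻¹ = (d * d) * (g * d * g⁻¹) := by rw [hd2, one_mul]
      _ = d * (d * (g * d * g⁻¹)) := by group
      _ = d := by rw [← hz, mul_one]
  apply hct g hg
  · show g * d = d * g
    calc g * d = (g * d * g⁻¹) * g := by group
      _ = d * g := by rw [heq2]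
  · show g * a = a * g
    calc g * a = (g * a * g⁻¹) * g := by group
      _ = a * g := by rw [heq]

/-- a fixed-point-free involution inverts a finite normal subgroup -/
theorem inverts [Finite G] {P : Subgroup G} (hPn : P.Normal) {t : G} (ht : t * t = 1)
    (hfpf : ∀ g ∈ P, Commute g t → g = 1) : ∀ g ∈ P, t * g * t⁻¹ = g⁻¹ := by
  have hPn' : P.Normal := hPn
  have hφ : MonoidHom.FixedPointFree (MulAut.conjNormal t : MulAut P) := by
    intro g hg
    have h1 : t * (g : G) * t⁻¹ = g := by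
      rw [← MulAut.conjNormal_apply]
      exact congrArg Subtype.val hg
    have h2 : Commute (g : G) t := by
      show (g : G) * t = t * g
      calc (g : G) * t = (t * g * t⁻¹) * t := by rw [h1]
        _ = t * g := by group
    exact Subtype.ext (hfpf g g.2 h2)
  have hinv : Function.Involutive (MulAut.conjNormal t : MulAut P) := by
    intro g
    apply Subtype.ext
    rw [MulAut.conjNormal_apply, MulAut.conjNormal_apply]
    have htinv : t⁻¹ = t := Cfsg.Agent.Lib.Helper21.W3Basic.inv_of_sq ht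
    rw [htinv]
    calc t * (t * (g : G) * t) * t = (t * t) * g * (t * t) := by group
      _ = g := by rw [ht, one_mul, mul_one]
  have key := MonoidHom.FixedPointFree.coe_eq_inv_of_involutive hφ hinv
  intro g hg
  have h1 := congrFun key ⟨g, hg⟩
  have h2 := congrArg Subtype.val h1
  rw [MulAut.conjNormal_apply] at h2
  simpa using h2

/-- no member of `D` can fail to commute with both `a` and `d` -/
theorem no_outside {P : Subgroup G} (hPn : P.Normal) (hP : IsPGroup 3 P) {a d e ρ : G}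
    (hd2 : d * d = 1) (hinv : ∀ g ∈ P, (a * d) * g * (a * d)⁻¹ = g⁻¹)
    (hρ : ρ ∈ P) (hρ1 : ρ ≠ 1) (hae : (a * e) ^ 3 = 1) (hde : (d * e) ^ 3 = 1) : False := by
  have hF : ∀ g ∈ P, (a * e) * g * (a * e)⁻¹ = ((d * e) * g * (d * e)⁻¹)⁻¹ := by
    intro g hg
    have h1 := hinv _ (hPn.conj_mem g hg (d * e))
    rw [← h1]
    have e1 : a * e = (a * d) * (d * e) := by
      calc a * e = a * (d * d) * e := by rw [hd2, mul_one]
        _ = (a * d) * (d * e) := by group
    rw [e1]; group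
  have hC : ∀ g ∈ P, (d * e) * g * (d * e)⁻¹ ∈ P := fun g hg => hPn.conj_mem g hg _
  have h1 := hF ρ hρ
  have h2 := hF _ (inv_mem (hC ρ hρ))
  have h3 := hF _ (hC _ (hC ρ hρ))
  have e2 : ((d * e) * ((d * e) * ρ * (d * e)⁻¹)⁻¹ * (d * e)⁻¹)⁻¹ =
      (d * e) * ((d * e) * ρ * (d * e)⁻¹) * (d * e)⁻¹ := by group
  have e3 : (d * e) * ((d * e) * ((d * e) * ρ * (d * e)⁻¹) * (d * e)⁻¹) * (d * e)⁻¹ =
      (d * e) ^ 3 * ρ * ((d * e) ^ 3)⁻¹ := by
    rw [Cfsg.Agent.Lib.Helper21.W3Basic.cube_expand]; group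
  have e4 : (a * e) * ((a * e) * ((a * e) * ρ * (a * e)⁻¹) * (a * e)⁻¹) * (a * e)⁻¹ =
      (a * e) ^ 3 * ρ * ((a * e) ^ 3)⁻¹ := by
    rw [Cfsg.Agent.Lib.Helper21.W3Basic.cube_expand]; group
  have h4 : ρ = ρ⁻¹ := by
    calc ρ = (a * e) ^ 3 * ρ * ((a * e) ^ 3)⁻¹ := by rw [hae]; group
      _ = (a * e) * ((a * e) * ((a * e) * ρ * (a * e)⁻¹) * (a * e)⁻¹) * (a * e)⁻¹ := e4.symm
      _ = (a * e) * ((a * e) * ((d * e) * ρ * (d * e)⁻¹)⁻¹ * (a * e)⁻¹) * (a * e)⁻¹ := by
          rw [h1]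
      _ = (a * e) * ((d * e) * ((d * e) * ρ * (d * e)⁻¹) * (d * e)⁻¹) * (a * e)⁻¹ := by
          rw [h2, e2]
      _ = ((d * e) * ((d * e) * ((d * e) * ρ * (d * e)⁻¹) * (d * e)⁻¹) * (d * e)⁻¹)⁻¹ := h3
      _ = ((d * e) ^ 3 * ρ * ((d * e) ^ 3)⁻¹)⁻¹ := by rw [e3]
      _ = ρ⁻¹ := by rw [hde]; group
  have h5 : ρ * ρ = 1 := by
    calc ρ * ρ = ρ * ρ⁻¹ := by rw [← h4]
      _ = 1 := mul_inv_cancel ρ
  exact hρ1 (eq_one_of_mem_three hP hρ h5)

/-- the `S₃ × S₃` case -/
theorem caseA [Finite G] (hD : IsThreeTranspositionSet D) (hL : Loc D)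
    (hconj : ∀ g : G, ∀ d ∈ D, g * d * g⁻¹ ∈ D) {d a b x : G} (hd : d ∈ D)
    (ha : a ∈ Pt D d) (hb : b ∈ Pt D d) (hab : ¬ Commute a b) (hx : x ∈ Pt D a) (hxd : x ≠ d)
    (hxb : Commute x b) (hO : Nat.card (pCore 3 ↥(Subgroup.centralizer ({d} : Set G))) = 3) :
    Nonempty (↥(Subgroup.closure D) ≃* Perm (Fin 3) × Perm (Fin 3)) := by
  have hane : a ≠ b := fun h => hab (by rw [h])
  have hdPa : d ∈ Pt D a := Pt_symm hd ha
  have hdPb : d ∈ Pt D b := Pt_symm hd hb
  have hxPb : x ∈ Pt D b := by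
    refine ⟨hx.1, ?_, hxb.symm⟩
    intro h
    apply hab
    rw [← h]; exact hx.2.2
  have hdx : ¬ Commute d x := Pt_noncomm hD hL ha.1 hdPa hx (fun h => hxd h.symm)
  obtain ⟨h3a, -, -⟩ := Pt_third hD hconj hdPa hx hdx
  obtain ⟨h3b, -, -⟩ := Pt_third hD hconj hdPb hxPb hdx
  have hPt : Pt D a = Pt D b := by
    ext y
    constructor
    · intro hy
      rcases Pt_eq hD hL hconj ha.1 hdPa hx (fun h => hxd h.symm) hy with h | h | h
      · rw [h]; exact hdPb
      · rw [h]; exact hxPb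
      · rw [h]; exact h3b
    · intro hy
      rcases Pt_eq hD hL hconj hb.1 hdPb hxPb (fun h => hxd h.symm) hy with h | h | h
      · rw [h]; exact hdPa
      · rw [h]; exact hx
      · rw [h]; exact h3a
  obtain ⟨P, hPn, hP, hPmem⟩ := exists_P hD hconj
  have hρ : a * b ∈ P := hPmem a ha.1 b hb.1 hPt
  have hρ1 : a * b ≠ 1 := by
    intro h
    apply hane
    calc a = a * (b * b) := by rw [tt_sq hD hb.1, mul_one]
      _ = (a * b) * b := by group
      _ = b := by rw [h, one_mul]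
  have hct : ∀ g ∈ P, Commute g d → Commute g a → g = 1 :=
    fun g hg h1 h2 => cent_trivial hD hPn hP ha hb hab hρ hO hg h1 h2
  have hfpf : ∀ g ∈ P, Commute g (a * d) → g = 1 :=
    fun g hg h => fpf hD hL hconj hPn hP hd ha hct hg h
  have ha2 := tt_sq hD ha.1
  have hd2 := tt_sq hD hd
  have hcad : d * a = a * d := ha.2.2
  have ht2 : (a * d) * (a * d) = 1 := by
    calc (a * d) * (a * d) = a * (d * a) * d := by group
      _ = a * (a * d) * d := by rw [hcad]
      _ = (a * a) * (d * d) := by group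
      _ = 1 := by rw [ha2, hd2, one_mul]
  have hinv := inverts hPn ht2 hfpf
  have hall : ∀ e ∈ D, Commute e a ∨ Commute e d := by
    intro e he
    by_contra hcon
    push Not at hcon
    obtain ⟨h1, h2⟩ := hcon
    have hae := cube_of_not_comm hD ha.1 he (fun h => h1 h.symm)
    have hde := cube_of_not_comm hD hd he (fun h => h2 h.symm)
    exact no_outside hPn hP hd2 hinv hρ hρ1 hae hde
  have hDeq : D = Pt D d ∪ Pt D a := by
    ext e
    constructor
    · intro he
      rcases hall e he with h | h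
      · by_cases hea : e = a
        · left; rw [hea]; exact ha
        · right; exact ⟨he, hea, h.symm⟩
      · by_cases hed : e = d
        · right; rw [hed]; exact hdPa
        · left; exact ⟨he, hed, h.symm⟩
    · rintro (h | h)
      · exact h.1
      · exact h.1
  have hcomm0 : ∀ v ∈ Pt D d, ∀ u ∈ Pt D a, v * u = u * v := by
    intro v hv u hu
    have hua : a * u = u * a := hu.2.2
    have hub : b * u = u * b := by rw [hPt] at hu; exact hu.2.2
    rcases Pt_eq hD hL hconj hd ha hb hane hv with h | h | h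
    · rw [h]; exact hua
    · rw [h]; exact hub
    · rw [h]
      calc a * b * a * u = a * b * (a * u) := by group
        _ = a * b * (u * a) := by rw [hua]
        _ = a * (b * u) * a := by group
        _ = a * (u * b) * a := by rw [hub]
        _ = (a * u) * b * a := by group
        _ = (u * a) * b * a := by rw [hua]
        _ = u * (a * b * a) := by group
  have hcomm1 : ∀ n ∈ Subgroup.closure (Pt D a), ∀ v ∈ Pt D d, v * n = n * v := by
    intro n hn v hv
    have hle : Subgroup.closure (Pt D a) ≤ Subgroup.centralizer ({v} : Set G) := by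
      rw [Subgroup.closure_le]
      intro u hu
      rw [SetLike.mem_coe, Subgroup.mem_centralizer_iff]
      intro w hw
      rw [Set.mem_singleton_iff] at hw
      rw [hw]; exact hcomm0 v hv u hu
    have h1 := hle hn
    rw [Subgroup.mem_centralizer_iff] at h1
    exact h1 v rfl
  have hcomm2 : ∀ m ∈ Subgroup.closure (Pt D d), ∀ n ∈ Subgroup.closure (Pt D a),
      m * n = n * m := by
    intro m hm n hn
    have hle : Subgroup.closure (Pt D d) ≤ Subgroup.centralizer ({n} : Set G) := by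
      rw [Subgroup.closure_le]
      intro v hv
      rw [SetLike.mem_coe, Subgroup.mem_centralizer_iff]
      intro w hw
      rw [Set.mem_singleton_iff] at hw
      rw [hw]; exact (hcomm1 n hn v hv).symm
    have h1 := hle hm
    rw [Subgroup.mem_centralizer_iff] at h1
    exact (h1 n rfl).symm
  obtain ⟨ψ₁⟩ := hL d hd
  obtain ⟨ψ₂⟩ := hL a ha.1
  have hdisj : Disjoint (Subgroup.closure (Pt D d)) (Subgroup.closure (Pt D a)) := by
    rw [Subgroup.disjoint_def]
    intro z hz1 hz2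
    have h1 : ψ₂ ⟨z, hz2⟩ = 1 := by
      apply p3_center
      intro t
      obtain ⟨n, rfl⟩ := ψ₂.surjective t
      rw [← map_mul, ← map_mul]
      congr 1
      apply Subtype.ext
      exact hcomm2 z hz1 n.1 n.2
    have h2 : (⟨z, hz2⟩ : ↥(Subgroup.closure (Pt D a))) = 1 := by
      apply ψ₂.injective; rw [h1, map_one]
    exact congrArg Subtype.val h2
  have hcomm3 : ∀ (m : ↥(Subgroup.closure (Pt D d))) (n : ↥(Subgroup.closure (Pt D a))),
      Commute ((Subgroup.closure (Pt D d)).subtype m) ((Subgroup.closure (Pt D a)).subtype n) :=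
    fun m n => hcomm2 m.1 m.2 n.1 n.2
  have hΘinj : Function.Injective (MonoidHom.noncommCoprod (Subgroup.closure (Pt D d)).subtype
      (Subgroup.closure (Pt D a)).subtype hcomm3) := by
    rw [MonoidHom.noncommCoprod_injective]
    refine ⟨Subtype.coe_injective, Subtype.coe_injective, ?_⟩
    rw [Subgroup.range_subtype, Subgroup.range_subtype]
    exact hdisj
  have hcl : Subgroup.closure D = Subgroup.closure (Pt D d) ⊔ Subgroup.closure (Pt D a) := by
    conv_lhs => rw [hDeq]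
    exact Subgroup.closure_union _ _
  have hΘrange : (MonoidHom.noncommCoprod (Subgroup.closure (Pt D d)).subtype
      (Subgroup.closure (Pt D a)).subtype hcomm3).range = Subgroup.closure D := by
    rw [hcl, MonoidHom.noncommCoprod_range, Subgroup.range_subtype, Subgroup.range_subtype]
  rw [← hΘrange]
  exact ⟨(MonoidHom.ofInjective hΘinj).symm.trans (MulEquiv.prodCongr ψ₁ ψ₂)⟩

end Cfsg.Agent.Lib.Helper52.TT3A
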